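import Mathlib
import Cfsg.Agent.Lib.Helper78.Cyc1Defs

/-! Ladder CYC1 (helper78), rung IND: the induced module. -/

set_option autoImplicit false

namespace Cfsg.Agent.Lib.Helper56.Cyc1

open Module Cfsg.Agent.Lib.Helper78.Cyc1
open scoped TensorProduct

variable {F A : Type*} [Field F] [Ring A] [Algebra F A]

theorem ind_split {W : Type*} [AddCommGroup W] [Module F W] (a : A) (T : Module.End F W)
    {X : Type*} [AddCommGroup X] [Module A X] [Module F X] [IsScalarTower F A X]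
    (φ : W ≃ₗ[F] X) (hφ : ∀ w, φ (T w) = a • φ w) :
    ∃ (π : Ind a T →ₗ[A] X) (ψ : X →ₗ[F] Ind a T),
      (∀ x, ψ (a • x) = a • ψ x) ∧ ∀ x, π (ψ x) = x := by
  -- the map `r ⊗ w ↦ r • φ w`
  obtain ⟨π₀, hπ₀⟩ : ∃ π₀ : A ⊗[F] W →ₗ[A] X, ∀ (r : A) (w : W), π₀ (r ⊗ₜ[F] w) = r • φ w :=
    ⟨TensorProduct.AlgebraTensorModule.lift
      (LinearMap.toSpanSingleton A (W →ₗ[F] X) φ.toLinearMap), fun r w => by simp⟩
  have hker : IndS a T ≤ LinearMap.ker π₀ := by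
    unfold IndS
    rw [Submodule.span_le]
    rintro _ ⟨w, rfl⟩
    rw [SetLike.mem_coe, LinearMap.mem_ker, map_sub, hπ₀, hπ₀, hφ, one_smul, sub_self]
  refine ⟨(IndS a T).liftQ π₀ hker,
    ((IndS a T).mkQ.restrictScalars F) ∘ₗ (TensorProduct.mk F A W 1) ∘ₗ φ.symm.toLinearMap,
    fun x => ?_, fun x => ?_⟩
  · change (IndS a T).mkQ ((1 : A) ⊗ₜ[F] φ.symm (a • x)) = a • (IndS a T).mkQ ((1 : A) ⊗ₜ[F] φ.symm x)
    have h1 : φ.symm (a • x) = T (φ.symm x) := by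
      rw [LinearEquiv.symm_apply_eq, hφ, LinearEquiv.apply_symm_apply]
    rw [h1, ← map_smul, TensorProduct.smul_tmul', smul_eq_mul, mul_one]
    symm
    rw [← sub_eq_zero, ← map_sub, Submodule.mkQ_apply, Submodule.Quotient.mk_eq_zero]
    exact Submodule.subset_span ⟨φ.symm x, rfl⟩
  · change (IndS a T).liftQ π₀ hker ((IndS a T).mkQ ((1 : A) ⊗ₜ[F] φ.symm x)) = x
    rw [Submodule.mkQ_apply, Submodule.liftQ_apply, hπ₀, one_smul, LinearEquiv.apply_symm_apply]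

end Cfsg.Agent.Lib.Helper56.Cyc1
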