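import Mathlib

/-! Ladder CYC1 (helper78), rung SPL: Higman's criterion. -/

set_option autoImplicit false

namespace Cfsg.Agent.Lib.Helper56.Cyc1

open Module

variable {F A : Type*} [Field F] [Ring A] [Algebra F A]

/-- Higman's criterion: an `A`-epimorphism that splits over `F[u]` splits over `A` when
`1` is a relative trace from `⟨u⟩`. -/
theorem split_of_usplit {G : Type*} [Group G] (ρ : G →* A)
    (hspan : Submodule.span F (Set.range ρ) = ⊤) (u : G) (c : A) (hc : c * ρ u = ρ u * c)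
    (T : Finset G) (hT : ∀ g : G, ∃! t, t ∈ T ∧ t⁻¹ * g ∈ Subgroup.zpowers u)
    (htr : ∑ t ∈ T, ρ t * c * ρ t⁻¹ = 1)
    {X Y : Type*} [AddCommGroup X] [Module A X] [Module F X] [IsScalarTower F A X]
    [AddCommGroup Y] [Module A Y] [Module F Y] [IsScalarTower F A Y]
    (π : Y →ₗ[A] X) (ψ : X →ₗ[F] Y) (hψ : ∀ x, ψ (ρ u • x) = ρ u • ψ x)
    (hπψ : ∀ x, π (ψ x) = x) :
    ∃ j : X →ₗ[A] Y, π ∘ₗ j = LinearMap.id := by
  classical
  have hinv : ∀ g : G, ρ g * ρ g⁻¹ = 1 := fun g => by rw [← map_mul, mul_inv_cancel, map_one]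
  have hinv' : ∀ g : G, ρ g⁻¹ * ρ g = 1 := fun g => by rw [← map_mul, inv_mul_cancel, map_one]
  -- the subgroup of elements commuting with `ψ` and `c`
  let H : Subgroup G :=
    { carrier := {d | (∀ x, ψ (ρ d • x) = ρ d • ψ x) ∧ c * ρ d = ρ d * c}
      mul_mem' := by
        rintro d d' ⟨h1, h2⟩ ⟨h1', h2'⟩
        refine ⟨fun x => ?_, ?_⟩
        · rw [map_mul, mul_smul, h1, h1', mul_smul]
        · rw [map_mul, ← mul_assoc, h2, mul_assoc, h2', mul_assoc]
      one_mem' := ⟨fun x => by rw [map_one, one_smul, one_smul], by rw [map_one, mul_one, one_mul]⟩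
      inv_mem' := by
        rintro d ⟨h1, h2⟩
        refine ⟨fun x => ?_, ?_⟩
        · have e1 := h1 (ρ d⁻¹ • x)
          rw [← mul_smul, hinv, one_smul] at e1
          rw [e1, ← mul_smul, hinv', one_smul]
        · calc c * ρ d⁻¹ = (ρ d⁻¹ * ρ d) * c * ρ d⁻¹ := by rw [hinv', one_mul]
            _ = ρ d⁻¹ * (ρ d * c) * ρ d⁻¹ := by rw [mul_assoc (ρ d⁻¹)]
            _ = ρ d⁻¹ * (c * ρ d) * ρ d⁻¹ := by rw [h2]
            _ = ρ d⁻¹ * c * (ρ d * ρ d⁻¹) := by simp only [mul_assoc]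
            _ = ρ d⁻¹ * c := by rw [hinv, mul_one] }
  have hH : Subgroup.zpowers u ≤ H := by
    rw [Subgroup.zpowers_le]
    exact ⟨hψ, hc⟩
  -- the summands
  obtain ⟨θ, hθ⟩ : ∃ θ : G → X → Y, ∀ t x, θ t x = ρ t • ψ (c • ρ t⁻¹ • x) := ⟨_, fun _ _ => rfl⟩
  have hA : ∀ t d, d ∈ Subgroup.zpowers u → ∀ x, θ (t * d) x = θ t x := by
    intro t d hd x
    have hd' := H.inv_mem (hH hd)
    rw [hθ, hθ, mul_inv_rev, map_mul, map_mul, mul_smul (ρ d⁻¹), ← mul_smul c, hd'.2,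
      mul_smul (ρ d⁻¹) c, hd'.1, ← mul_smul, mul_assoc, hinv, mul_one]
  have hB : ∀ g t x, θ (g * t) (ρ g • x) = ρ g • θ t x := by
    intro g t x
    rw [hθ, hθ, mul_inv_rev, map_mul, map_mul, ← mul_smul _ (ρ g) x, mul_assoc, hinv', mul_one,
      mul_smul]
  -- the permutation of `T`
  obtain ⟨σ, hσ⟩ : ∃ σ : G → G → G, ∀ g t, σ g t ∈ T ∧ (σ g t)⁻¹ * (g * t) ∈ Subgroup.zpowers u :=
    ⟨fun g t => (hT (g * t)).choose, fun g t => (hT (g * t)).choose_spec.1⟩
  have hσσ : ∀ g t, t ∈ T → σ g⁻¹ (σ g t) = t := by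
    intro g t ht
    refine (hT (g⁻¹ * σ g t)).unique (hσ _ _) ⟨ht, ?_⟩
    have := (Subgroup.zpowers u).inv_mem (hσ g t).2
    simpa [mul_assoc] using this
  have hθσ : ∀ g t x, θ (σ g t) x = θ (g * t) x := by
    intro g t x
    have := hA (σ g t) _ (hσ g t).2 x
    rw [mul_inv_cancel_left] at this
    exact this.symm
  obtain ⟨jf, hjf⟩ : ∃ jf : X → Y, ∀ x, jf x = ∑ t ∈ T, θ t x := ⟨_, fun _ => rfl⟩
  have hadd : ∀ x y, jf (x + y) = jf x + jf y := by
    intro x y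
    rw [hjf, hjf, hjf, ← Finset.sum_add_distrib]
    refine Finset.sum_congr rfl fun t _ => ?_
    rw [hθ, hθ, hθ, smul_add, smul_add, map_add, smul_add]
  have hsm : ∀ (r : F) x, jf (r • x) = r • jf x := by
    intro r x
    rw [hjf, hjf, Finset.smul_sum]
    refine Finset.sum_congr rfl fun t _ => ?_
    rw [hθ, hθ, smul_comm _ r, smul_comm _ r, map_smul, smul_comm _ r]
  have hg : ∀ g x, jf (ρ g • x) = ρ g • jf x := by
    intro g x
    rw [hjf, hjf, Finset.smul_sum]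
    symm
    refine Finset.sum_nbij' (σ g) (σ g⁻¹) (fun t _ => (hσ g t).1) (fun t _ => (hσ g⁻¹ t).1)
      (fun t ht => hσσ g t ht) (fun t ht => ?_) (fun t _ => ?_)
    · have := hσσ g⁻¹ t ht
      rwa [inv_inv] at this
    · rw [hθσ, hB]
  have hall : ∀ (a : A) x, jf (a • x) = a • jf x := by
    intro a
    have ha : a ∈ Submodule.span F (Set.range ρ) := hspan ▸ Submodule.mem_top
    induction ha using Submodule.span_induction with
    | mem a h =>
      obtain ⟨g, rfl⟩ := h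
      exact hg g
    | zero =>
      intro x
      rw [zero_smul, zero_smul]
      have := hsm 0 x
      rwa [zero_smul, zero_smul] at this
    | add a b _ _ iha ihb =>
      intro x
      rw [add_smul, add_smul, hadd, iha, ihb]
    | smul r a _ iha =>
      intro x
      rw [smul_assoc, smul_assoc, hsm, iha]
  refine ⟨{ toFun := jf, map_add' := hadd, map_smul' := fun a x => hall a x }, ?_⟩
  ext x
  change π (jf x) = x
  rw [hjf, map_sum]
  calc ∑ t ∈ T, π (θ t x) = ∑ t ∈ T, (ρ t * c * ρ t⁻¹) • x := by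
        refine Finset.sum_congr rfl fun t _ => ?_
        rw [hθ, map_smul, hπψ, mul_smul, mul_smul]
    _ = x := by rw [← Finset.sum_smul, htr, one_smul]

end Cfsg.Agent.Lib.Helper56.Cyc1
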