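import Mathlib
import Cfsg.Agent.Lib.Helper78.Cyc1Defs
import Cfsg.Agent.Lib.Helper48.JordanConj
import Cfsg.Agent.Lib.Helper56.Cyc1SPL
import Cfsg.Agent.Lib.Helper56.Cyc1IND
import Cfsg.Agent.Lib.Helper36.Cyc1EXCH

/-! Ladder CYC1 (helper78), rung FT: finite representation type. -/

set_option autoImplicit false

namespace Cfsg.Agent.Lib.Helper56.Cyc1

open Module Cfsg.Agent.Lib.Helper78.Cyc1
open scoped TensorProduct

variable {F A : Type*} [Field F] [Ring A] [Algebra F A]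

theorem ft_finite_quot [FiniteDimensional F A] {Z : Type*} [AddCommGroup Z] [Module A Z]
    [Module F Z] [IsScalarTower F A Z] [FiniteDimensional F Z] (S : Submodule A Z) :
    FiniteDimensional F (Z ⧸ S) :=
  Module.Finite.of_surjective (S.mkQ.restrictScalars F) S.mkQ_surjective

theorem no_infinite_family [FiniteDimensional F A] {G : Type*} [Group G] (ρ : G →* A)
    (hspan : Submodule.span F (Set.range ρ) = ⊤) (u : G) (hu : IsNilpotent (ρ u - 1))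
    (c : A) (hc : c * ρ u = ρ u * c)
    (T : Finset G) (hT : ∀ g : G, ∃! t, t ∈ T ∧ t⁻¹ * g ∈ Subgroup.zpowers u)
    (htr : ∑ t ∈ T, ρ t * c * ρ t⁻¹ = 1)
    {κ : Type*} [Infinite κ] (L : κ → Ideal A) (hnt : ∀ i, L i ≠ ⊤)
    (hloc : ∀ i, LocEnd A (A ⧸ L i))
    (hne : ∀ i j, i ≠ j → IsEmpty ((A ⧸ L i) ≃ₗ[A] (A ⧸ L j))) : False := by
  classical
  obtain ⟨q, hq⟩ := hu
  have hfd : ∀ i, FiniteDimensional F (A ⧸ L i) := fun i => ft_finite_quot (L i)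
  have hle : ∀ i, finrank F (A ⧸ L i) ≤ finrank F A := fun i =>
    LinearMap.finrank_le_finrank_of_surjective (f := (L i).mkQ.restrictScalars F)
      (L i).mkQ_surjective
  obtain ⟨N, hN⟩ : ∃ N : ∀ i, Module.End F (A ⧸ L i),
      ∀ i, N i = Algebra.lsmul F F (A ⧸ L i) (ρ u - 1) := ⟨_, fun _ => rfl⟩
  have hNq : ∀ i k, q ≤ k → N i ^ k = 0 := by
    intro i k hk
    rw [hN, ← map_pow, pow_eq_zero_of_le hk hq, map_zero]
  have hb : ∀ i k, finrank F (LinearMap.ker (N i ^ k)) < finrank F A + 1 := fun i k =>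
    Nat.lt_succ_of_le ((Submodule.finrank_le _).trans (hle i))
  obtain ⟨y, hy⟩ := Finite.exists_infinite_fiber
    (fun i : κ => fun k : Fin (q + 1) =>
      (⟨finrank F (LinearMap.ker (N i ^ (k : ℕ))), hb i k⟩ : Fin (finrank F A + 1)))
  have hyk : ∀ i, i ∈ (fun i : κ => fun k : Fin (q + 1) =>
      (⟨finrank F (LinearMap.ker (N i ^ (k : ℕ))), hb i k⟩ : Fin (finrank F A + 1))) ⁻¹' {y} →
      ∀ k (hk : k ≤ q), finrank F (LinearMap.ker (N i ^ k)) = (y ⟨k, Nat.lt_succ_of_le hk⟩ : ℕ) := by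
    intro i hi k hk
    have := congrFun hi ⟨k, Nat.lt_succ_of_le hk⟩
    exact congrArg Fin.val this
  obtain ⟨Φ, hΦ⟩ : ∃ Φ : Set κ, Φ = (fun i : κ => fun k : Fin (q + 1) =>
      (⟨finrank F (LinearMap.ker (N i ^ (k : ℕ))), hb i k⟩ : Fin (finrank F A + 1))) ⁻¹' {y} :=
    ⟨_, rfl⟩
  rw [← hΦ] at hy hyk
  have hΦinf : Φ.Infinite := Set.infinite_coe_iff.mp hy
  obtain ⟨i₀, hi₀⟩ := hΦinf.nonempty
  have hker : ∀ i ∈ Φ, ∀ k, finrank F (LinearMap.ker (N i₀ ^ k)) =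
      finrank F (LinearMap.ker (N i ^ k)) := by
    intro i hi k
    rcases le_total k q with hk | hk
    · rw [hyk i₀ hi₀ k hk, hyk i hi k hk]
    · rw [hNq i₀ k hk, hNq i k hk, ← hNq i₀ q le_rfl, ← hNq i q le_rfl, hyk i₀ hi₀ q le_rfl,
        hyk i hi q le_rfl]
  have hnil : ∀ i, IsNilpotent (N i) := fun i => ⟨q, hNq i q le_rfl⟩
  obtain ⟨T₀, hT₀⟩ : ∃ T₀ : Module.End F (A ⧸ L i₀),
      T₀ = Algebra.lsmul F F (A ⧸ L i₀) (ρ u) := ⟨_, rfl⟩
  have hsummand : ∀ i ∈ Φ, ∃ (a : (A ⧸ L i) →ₗ[A] Ind (ρ u) T₀) (b : Ind (ρ u) T₀ →ₗ[A] (A ⧸ L i)),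
      b ∘ₗ a = LinearMap.id := by
    intro i hi
    obtain ⟨φ, hφ⟩ := Cfsg.Agent.Lib.Helper48.exists_equiv_of_finrank_ker _ (A ⧸ L i₀) (A ⧸ L i)
      (N i₀) (N i) rfl (hnil i₀) (hnil i) (hker i hi)
    have hφ' : ∀ w, φ (T₀ w) = ρ u • φ w := by
      intro w
      have h1 := hφ w
      rw [hN, hN] at h1
      change φ ((ρ u - 1) • w) = (ρ u - 1) • φ w at h1
      rw [sub_smul, sub_smul, one_smul, one_smul, map_sub, sub_left_inj] at h1
      rw [hT₀]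
      exact h1
    obtain ⟨π, ψ, h1, h2⟩ := ind_split (ρ u) T₀ φ hφ'
    obtain ⟨j, hj⟩ := split_of_usplit ρ hspan u c hc T hT htr π ψ h1 h2
    exact ⟨j, π, hj⟩
  have hfdY : FiniteDimensional F (Ind (ρ u) T₀) := ft_finite_quot _
  obtain ⟨s, hsΦ, hscard⟩ := hΦinf.exists_subset_card_eq (finrank F (Ind (ρ u) T₀) + 1)
  have hex := Cfsg.Agent.Lib.Helper36.Cyc1.exch (F := F) (R := A) (fun i : κ => A ⧸ L i) hloc hne s
    (Ind (ρ u) T₀) (fun i hi => hsummand i (hsΦ hi))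
  have hpos : ∀ i, 1 ≤ finrank F (A ⧸ L i) := by
    intro i
    have : Nontrivial (A ⧸ L i) := Submodule.Quotient.nontrivial_iff.mpr (hnt i)
    exact Module.finrank_pos
  have hcard : s.card ≤ ∑ i ∈ s, finrank F (A ⧸ L i) := by
    calc s.card = ∑ i ∈ s, 1 := by simp
      _ ≤ _ := Finset.sum_le_sum fun i _ => hpos i
  omega

end Cfsg.Agent.Lib.Helper56.Cyc1
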