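import Mathlib

set_option autoImplicit false

/-! Rung R1 of helper82's ladder for S4647. -/

namespace Cfsg.Agent.Lib.Helper56.Perm

open scoped BigOperators

theorem exists_fixed_fun {p : ℕ} [Fact p.Prime] {k P X : Type*} [Field k] [CharP k p] [Group P]
    [Finite P] (hP : IsPGroup p P) [MulAction P X] (W : Submodule k (X → k))
    (hW : ∀ (a : P), ∀ f ∈ W, (fun x => f (a • x)) ∈ W) (hne : W ≠ ⊥) :
    ∃ f ∈ W, f ≠ 0 ∧ ∀ (a : P) (x : X), f (a • x) = f x := by
  classical
  have : Fintype P := Fintype.ofFinite P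
  obtain ⟨w, hwW, hw0⟩ := Submodule.exists_mem_ne_zero_of_ne_bot hne
  let ι : ZMod p →+* k := ZMod.castHom (dvd_refl p) k
  let φ : (P → ZMod p) →+ (X → k) :=
    { toFun := fun c x => ∑ a, ι (c a) * w (a • x)
      map_zero' := by funext x; simp
      map_add' := by
        intro c d; funext x
        simp only [Pi.add_apply, map_add, add_mul, Finset.sum_add_distrib] }
  have hφ : ∀ c x, φ c x = ∑ a, ι (c a) * w (a • x) := fun _ _ => rfl
  have hfin : Finite φ.range := (Set.finite_range φ).to_subtype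
  have hAW : ∀ f ∈ φ.range, f ∈ W := by
    rintro _ ⟨c, rfl⟩
    have : φ c = ∑ a, ι (c a) • (fun x => w (a • x)) := by
      funext x
      rw [hφ, Finset.sum_apply]
      rfl
    rw [this]
    exact Submodule.sum_mem _ fun a _ => Submodule.smul_mem _ _ (hW a w hwW)
  have hwA : w ∈ φ.range := by
    refine ⟨Pi.single 1 1, ?_⟩
    funext x
    rw [hφ, Finset.sum_eq_single 1]
    · simp
    · intro b _ hb
      simp [Pi.single_eq_of_ne hb]
    · intro h; exact absurd (Finset.mem_univ _) h
  have hact : ∀ (a : P), ∀ f ∈ φ.range, (fun x => f (a⁻¹ • x)) ∈ φ.range := by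
    rintro a _ ⟨c, rfl⟩
    refine ⟨fun b => c (b * a), ?_⟩
    funext x
    rw [hφ, hφ]
    refine Fintype.sum_equiv (Equiv.mulRight a) _ _ ?_
    intro b
    simp [mul_smul]
  let _ : MulAction P φ.range :=
    { smul := fun a f => ⟨fun x => f.1 (a⁻¹ • x), hact a f.1 f.2⟩
      one_smul := fun f => Subtype.ext (by
        funext x
        show f.1 ((1 : P)⁻¹ • x) = f.1 x
        rw [inv_one, one_smul])
      mul_smul := fun a b f => Subtype.ext (by
        funext x
        show f.1 ((a * b)⁻¹ • x) = f.1 (b⁻¹ • a⁻¹ • x)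
        rw [mul_inv_rev, mul_smul]) }
  have hsm : ∀ (a : P) (f : φ.range) (x : X), (a • f).1 x = f.1 (a⁻¹ • x) := fun _ _ _ => rfl
  have hp : p ∣ Nat.card φ.range := by
    have h1 : addOrderOf (⟨w, hwA⟩ : φ.range) = p := by
      apply addOrderOf_eq_prime
      · apply Subtype.ext
        show p • w = 0
        funext x
        simp
      · intro h
        exact hw0 (congrArg Subtype.val h)
    have h2 := addOrderOf_dvd_natCard (⟨w, hwA⟩ : φ.range)
    rwa [h1] at h2
  have h0 : (0 : φ.range) ∈ MulAction.fixedPoints P φ.range := by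
    intro a
    apply Subtype.ext
    funext x
    rw [hsm]
    rfl
  obtain ⟨b, hb, hb0⟩ := hP.exists_fixed_point_of_prime_dvd_card_of_fixed_point φ.range hp h0
  refine ⟨b.1, hAW _ b.2, fun h => hb0 (Subtype.ext h.symm), fun a x => ?_⟩
  have := congrArg (fun f : φ.range => f.1 x) (hb a⁻¹)
  simp only [hsm, inv_inv] at this
  exact this

end Cfsg.Agent.Lib.Helper56.Perm
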