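import Mathlib
import Cfsg.Agent.Lib.Helper80.FixSum
import Cfsg.Agent.Lib.Helper82.PermDef
import Cfsg.Agent.Lib.Helper56.PermR1

set_option autoImplicit false

/-! Rung R2 of helper82's ladder for S4647. -/

namespace Cfsg.Agent.Lib.Helper56.Perm

open scoped BigOperators
open Cfsg.Agent.Lib.Helper82 Cfsg.Agent.Lib.Helper80

section

variable {k P X : Type*} [Field k] [Group P] [Fintype X] [MulAction P X] (K : X → X → k)

theorem kerOp_idem (hidem : ∀ x z, ∑ y, K x y * K y z = K x z) (f : X → k) :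
    kerOp K (kerOp K f) = kerOp K f := by
  funext z
  simp only [kerOp_apply, Finset.sum_mul]
  rw [Finset.sum_comm]
  refine Finset.sum_congr rfl fun x _ => ?_
  rw [← hidem x z, Finset.mul_sum]
  exact Finset.sum_congr rfl fun y _ => mul_assoc _ _ _

theorem kerOp_comm (hinv : ∀ (a : P) (x y : X), K (a • x) (a • y) = K x y) (a : P) (f : X → k) :
    kerOp K (fun x => f (a • x)) = fun y => kerOp K f (a • y) := by
  funext y
  simp only [kerOp_apply]
  refine Fintype.sum_equiv (MulAction.toPerm a) _ _ ?_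
  intro x
  simp only [MulAction.toPerm_apply]
  rw [hinv]

open Classical in
/-- indicator function of the orbit of `x`. -/
noncomputable def ind (k P : Type*) {X : Type*} [Field k] [Group P] [MulAction P X] (x : X) :
    X → k := fun y => if y ∈ MulAction.orbit P x then 1 else 0

open Classical in
theorem kerOp_ind (x y : X) :
    kerOp K (ind k P x) y = ∑ z with z ∈ MulAction.orbit P x, K z y := by
  rw [kerOp_apply, Finset.sum_filter]
  refine Finset.sum_congr rfl fun z _ => ?_
  unfold ind
  split_ifs <;> simp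

omit [Fintype X] in
theorem smul_mem_orbit_iff' (a : P) (x y : X) :
    a • y ∈ MulAction.orbit P x ↔ y ∈ MulAction.orbit P x := by
  constructor
  · intro h
    have := MulAction.mem_orbit_of_mem_orbit a⁻¹ h
    rwa [inv_smul_smul] at this
  · exact MulAction.mem_orbit_of_mem_orbit a

omit [Fintype X] in
theorem ind_congr {x g : X} (hg : g ∈ MulAction.orbit P x) : ind k P g = ind k P x := by
  unfold ind
  rw [MulAction.orbit_eq_iff.2 hg]

omit [Fintype X] in
theorem ind_smul (a : P) (x y : X) : ind k P x (a • y) = ind k P x y := by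
  by_cases h : y ∈ MulAction.orbit P x
  · have h' := (smul_mem_orbit_iff' a x y).2 h
    simp only [ind, h, h', if_true]
  · have h' : ¬ a • y ∈ MulAction.orbit P x := fun hh => h ((smul_mem_orbit_iff' a x y).1 hh)
    simp only [ind, h, h', if_false]

open Classical in
theorem exists_good (hidem : ∀ x z, ∑ y, K x y * K y z = K x z) {w : X → k}
    (hw : w ∈ LinearMap.range (kerOp K)) (hw0 : w ≠ 0) (hwi : ∀ (a : P) (x : X), w (a • x) = w x) :
    ∃ x, kerOp K (ind k P x) ≠ 0 ∧ w x ≠ 0 := by
  by_contra hcon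
  push Not at hcon
  apply hw0
  obtain ⟨v, rfl⟩ := hw
  rw [← kerOp_idem K hidem]
  obtain ⟨w, hwdef⟩ : ∃ w, w = kerOp K v := ⟨_, rfl⟩
  rw [← hwdef] at hcon hwi ⊢
  funext y
  rw [kerOp_apply, ← Finset.sum_fiberwise Finset.univ
    (fun x => (Quotient.mk'' x : MulAction.orbitRel.Quotient P X))]
  refine Finset.sum_eq_zero fun q _ => ?_
  have hmem : ∀ x : X, (Quotient.mk'' x : MulAction.orbitRel.Quotient P X) = q ↔
      x ∈ MulAction.orbit P q.out := by
    intro x
    rw [← MulAction.orbitRel_apply]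
    conv_lhs => rw [← Quotient.out_eq' q]
    exact Quotient.eq''
  have h1 : ∑ x with (Quotient.mk'' x : MulAction.orbitRel.Quotient P X) = q, w x * K x y =
      w q.out * kerOp K (ind k P q.out) y := by
    rw [kerOp_ind, Finset.mul_sum]
    refine Finset.sum_congr ?_ ?_
    · ext x; simp only [Finset.mem_filter, Finset.mem_univ, true_and]; exact hmem x
    · intro x hx
      simp only [Finset.mem_filter, Finset.mem_univ, true_and] at hx
      obtain ⟨a, rfl⟩ := hx
      show w (a • q.out) * _ = _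
      rw [hwi]
  rw [h1]
  by_cases h2 : kerOp K (ind k P q.out) = 0
  · rw [h2]; simp
  · rw [hcon _ h2]; simp

end

open Classical in
theorem perm_summand {p : ℕ} [Fact p.Prime] {k P X : Type*} [Field k] [CharP k p] [Group P]
    [Finite P] (hP : IsPGroup p P) [Fintype X] [MulAction P X] (K : X → X → k)
    (hinv : ∀ (a : P) (x y : X), K (a • x) (a • y) = K x y)
    (hidem : ∀ x z, ∑ y, K x y * K y z = K x z) (hne : ∃ x y, K x y ≠ 0) :
    ∃ x₀ x₁ : X, MulAction.stabilizer P x₀ = MulAction.stabilizer P x₁ ∧ K x₀ x₁ ≠ 0 ∧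
      Nat.card (MulAction.orbit P x₀) ≤ Module.finrank k (LinearMap.range (kerOp K)) ∧
      (Module.finrank k (LinearMap.range (kerOp K)) ≤ Nat.card (MulAction.orbit P x₀) →
        ∀ (Q : Type*) [Group Q] (_ : IsPGroup p Q) (ι : Q →* P) (m : X → k),
          m ∈ LinearMap.range (kerOp K) → (∀ (u : Q) (x : X), m (ι u • x) = m x) →
          ∀ x₂ : X, (∀ u : Q, ι u • x₂ = x₂) → m x₂ ≠ 0 →
            ∃ g ∈ MulAction.orbit P x₀, ∀ u : Q, ι u • g = g) := by
  -- (B) good points exist
  have hrange_inv : ∀ (a : P), ∀ f ∈ LinearMap.range (kerOp K),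
      (fun x => f (a • x)) ∈ LinearMap.range (kerOp K) := by
    rintro a _ ⟨v, rfl⟩
    exact ⟨fun x => v (a • x), kerOp_comm K hinv a v⟩
  have hrange_ne : LinearMap.range (kerOp K) ≠ ⊥ := by
    obtain ⟨x, y, hxy⟩ := hne
    intro h
    have h1 : kerOp K (Pi.single x 1) ∈ LinearMap.range (kerOp K) := ⟨_, rfl⟩
    rw [h, Submodule.mem_bot] at h1
    have h2 := congrFun h1 y
    rw [kerOp_apply, Finset.sum_eq_single x] at h2
    · simp at h2; exact hxy h2
    · intro b _ hb; simp [Pi.single_eq_of_ne hb]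
    · intro h; exact absurd (Finset.mem_univ _) h
  obtain ⟨f0, hf0, hf00, hf0i⟩ := exists_fixed_fun hP _ hrange_inv hrange_ne
  obtain ⟨y0, hy0, -⟩ := exists_good (P := P) K hidem hf0 hf00 hf0i
  -- (C) minimal stabilizer
  obtain ⟨y1, hy1, hmin⟩ := Set.exists_min_image {x : X | kerOp K (ind k P x) ≠ 0}
    (fun x => Nat.card (MulAction.stabilizer P x)) (Set.toFinite _) ⟨y0, hy0⟩
  have hwi : ∀ (a : P) (x : X), kerOp K (ind k P y1) (a • x) = kerOp K (ind k P y1) x := by
    intro a x
    have := congrFun (kerOp_comm K hinv a (ind k P y1)) x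
    rw [← this]
    have e : (fun x => ind k P y1 (a • x)) = ind k P y1 := by
      funext z
      exact ind_smul a y1 z
    rw [e]
  obtain ⟨x₁, hx₁, hwx₁⟩ := exists_good (P := P) K hidem ⟨_, rfl⟩ hy1 hwi
  rw [kerOp_ind] at hwx₁
  have hfix := sum_eq_sum_fixed (p := p) (k := k) (hP.to_subgroup (MulAction.stabilizer P x₁))
    (fun a y => (a : P) • y) (fun y => one_smul _ y) (fun a b y => mul_smul _ _ y)
    (Finset.univ.filter fun z => z ∈ MulAction.orbit P y1)
    (by
      intro a y hy
      simp only [Finset.mem_filter, Finset.mem_univ, true_and] at hy ⊢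
      exact (smul_mem_orbit_iff' _ _ _).2 hy)
    (fun z => K z x₁)
    (by
      intro a y _
      have := hinv (a : P) y x₁
      rwa [show (a : P) • x₁ = x₁ from a.2] at this)
  rw [hfix] at hwx₁
  obtain ⟨x₀, hx₀, hK⟩ := Finset.exists_ne_zero_of_sum_ne_zero hwx₁
  simp only [Finset.mem_filter, Finset.mem_univ, true_and] at hx₀
  obtain ⟨hx₀orb, hx₀fix⟩ := hx₀
  have hgood : kerOp K (ind k P x₀) ≠ 0 := by rw [ind_congr hx₀orb]; exact hy1
  have hstab : MulAction.stabilizer P x₀ = MulAction.stabilizer P x₁ := by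
    have hle : MulAction.stabilizer P x₁ ≤ MulAction.stabilizer P x₀ := fun a ha => hx₀fix ⟨a, ha⟩
    refine (Subgroup.eq_of_le_of_card_ge hle ?_).symm
    obtain ⟨a, rfl⟩ := hx₀orb
    have e1 : Nat.card (MulAction.stabilizer P (a • y1)) = Nat.card (MulAction.stabilizer P y1) := by
      rw [MulAction.stabilizer_smul_eq_stabilizer_map_conj]
      exact Subgroup.card_map_of_injective (MulAut.conj a).injective
    show Nat.card (MulAction.stabilizer P (a • y1)) ≤ _
    rw [e1]
    exact hmin x₁ hx₁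
  -- (D)
  obtain ⟨O, hO⟩ : ∃ O : Set X, O = MulAction.orbit P x₀ := ⟨_, rfl⟩
  let VO : Submodule k (X → k) :=
    { carrier := {f | ∀ x, x ∉ O → f x = 0}
      add_mem' := by
        intro f g hf hg x hx
        simp [hf x hx, hg x hx]
      zero_mem' := fun _ _ => rfl
      smul_mem' := by
        intro c f hf x hx
        simp [hf x hx] }
  have hVO : ∀ f, f ∈ VO ↔ ∀ x, x ∉ O → f x = 0 := fun _ => Iff.rfl
  have hVOinv : ∀ (a : P), ∀ f ∈ VO, (fun x => f (a • x)) ∈ VO := by
    intro a f hf x hx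
    apply hf
    rw [hO] at hx ⊢
    rwa [smul_mem_orbit_iff']
  have hD : ∀ f ∈ VO, kerOp K f = 0 → f = 0 := by
    have hbot : VO ⊓ LinearMap.ker (kerOp K) = ⊥ := by
      by_contra hne'
      obtain ⟨f, hf, hf0, hfi⟩ := exists_fixed_fun hP (VO ⊓ LinearMap.ker (kerOp K))
        (by
          rintro a f ⟨h1, h2⟩
          refine ⟨hVOinv a f h1, ?_⟩
          rw [SetLike.mem_coe, LinearMap.mem_ker] at h2 ⊢
          rw [kerOp_comm K hinv, h2]
          rfl) hne'
      have hfeq : f = f x₀ • ind k P x₀ := by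
        funext y
        by_cases hy : y ∈ MulAction.orbit P x₀
        · obtain ⟨a, rfl⟩ := hy
          show f (a • x₀) = _
          rw [hfi]
          simp [ind, MulAction.mem_orbit]
        · have : f y = 0 := hf.1 y (by rw [hO]; exact hy)
          rw [this]
          simp [ind, hy]
      have hker : kerOp K f = 0 := hf.2
      rw [hfeq, map_smul] at hker
      rcases smul_eq_zero.1 hker with h | h
      · apply hf0; rw [hfeq, h, zero_smul]
      · exact hgood h
    intro f hf hf2
    have : f ∈ VO ⊓ LinearMap.ker (kerOp K) := ⟨hf, hf2⟩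
    rwa [hbot, Submodule.mem_bot] at this
  let ext : (O → k) →ₗ[k] (X → k) :=
    { toFun := fun f x => if h : x ∈ O then f ⟨x, h⟩ else 0
      map_add' := by
        intro f g; funext x
        by_cases h : x ∈ O <;> simp [h]
      map_smul' := by
        intro c f; funext x
        by_cases h : x ∈ O <;> simp [h] }
  have hext : ∀ f x, ext f x = if h : x ∈ O then f ⟨x, h⟩ else 0 := fun _ _ => rfl
  have hextV : ∀ f, ext f ∈ VO := by
    intro f x hx
    rw [hext, dif_neg hx]
  have hextinj : ∀ f, ext f = 0 → f = 0 := by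
    intro f hf
    funext x
    have := congrFun hf x.1
    rw [hext, dif_pos x.2] at this
    exact this
  let Lm : (O → k) →ₗ[k] LinearMap.range (kerOp K) := (kerOp K).rangeRestrict ∘ₗ ext
  have hLinj : Function.Injective Lm := by
    rw [← LinearMap.ker_eq_bot, LinearMap.ker_eq_bot']
    intro f hf
    apply hextinj
    apply hD _ (hextV f)
    exact congrArg Subtype.val hf
  have hcardO : Module.finrank k (O → k) = Nat.card (MulAction.orbit P x₀) := by
    rw [Module.finrank_fintype_fun_eq_card, ← Nat.card_eq_fintype_card, hO]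
  have hle : Nat.card (MulAction.orbit P x₀) ≤ Module.finrank k (LinearMap.range (kerOp K)) := by
    rw [← hcardO]
    exact LinearMap.finrank_le_finrank_of_injective hLinj
  refine ⟨x₀, x₁, hstab, hK, hle, ?_⟩
  -- (E)
  intro hge Q _ hQ ι m hm hmi x₂ hx₂ hmx₂
  have hsurj : Function.Surjective Lm :=
    (LinearMap.injective_iff_surjective_of_finrank_eq_finrank
      (by rw [hcardO]; exact le_antisymm hle hge)).1 hLinj
  obtain ⟨f₀, hf₀⟩ := hsurj ⟨m, hm⟩
  have hmf : kerOp K (ext f₀) = m := congrArg Subtype.val hf₀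
  obtain ⟨f, hfdef⟩ : ∃ f, f = ext f₀ := ⟨_, rfl⟩
  have hfV : f ∈ VO := hfdef ▸ hextV f₀
  rw [← hfdef] at hmf
  have hfi : ∀ (u : Q) (x : X), f (ι u • x) = f x := by
    intro u x
    have h1 : (fun x => f (ι u • x)) - f = 0 := by
      apply hD _ (VO.sub_mem (hVOinv _ f hfV) hfV)
      rw [map_sub, kerOp_comm K hinv, hmf, sub_eq_zero]
      funext y
      exact hmi u y
    have := congrFun h1 x
    simpa [sub_eq_zero] using this
  rw [← hmf, kerOp_apply] at hmx₂
  have hfix2 := sum_eq_sum_fixed (p := p) (k := k) hQ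
    (fun u y => ι u • y) (fun y => by simp) (fun a b y => by simp [mul_smul])
    (Finset.univ : Finset X) (fun _ _ _ => Finset.mem_univ _)
    (fun x => f x * K x x₂)
    (by
      intro u y _
      have := hinv (ι u) y x₂
      rw [hx₂ u] at this
      show f (ι u • y) * K (ι u • y) x₂ = _
      rw [hfi, this])
  rw [hfix2] at hmx₂
  obtain ⟨g, hg, hgne⟩ := Finset.exists_ne_zero_of_sum_ne_zero hmx₂
  simp only [Finset.mem_filter, Finset.mem_univ, true_and] at hg
  refine ⟨g, ?_, hg⟩
  by_contra hgO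
  apply hgne
  rw [hfV g (by rw [hO]; exact hgO), zero_mul]

end Cfsg.Agent.Lib.Helper56.Perm
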