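import Mathlib
import Cfsg.Prelude
import Cfsg.Agent.Lib.Helper30.Coprime
import Cfsg.Agent.Lib.Helper66.FrobAct
import Cfsg.Agent.Lib.Helper56.Cent

set_option autoImplicit false

/-! Auxiliary lemmas for rung D of the B-G 3.6 ladder: fixed points of one element in invariant cosets,
and a Frobenius action on a section. -/

namespace Cfsg.Agent.Lib.Helper56.BG

open Subgroup Cfsg
open Cfsg.Agent.Lib.Helper30 (cj)
open scoped commutatorElement

variable {G : Type*} [Group G]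

/-- the stabilizer of the coset `k N` inside `N_G(N)` -/
def cosetStab (N : Subgroup G) (k : G) : Subgroup G where
  carrier := {g | g ∈ normalizer (N : Set G) ∧ k⁻¹ * g * k * g⁻¹ ∈ N}
  one_mem' := ⟨one_mem _, by simp⟩
  mul_mem' := by
    rintro g h ⟨hg, hg'⟩ ⟨hh, hh'⟩
    refine ⟨mul_mem hg hh, ?_⟩
    have h1 : g * (k⁻¹ * h * k * h⁻¹) * g⁻¹ ∈ N := (mem_normalizer_iff.mp hg _).mp hh'
    have : k⁻¹ * (g * h) * k * (g * h)⁻¹ = (k⁻¹ * g * k * g⁻¹) * (g * (k⁻¹ * h * k * h⁻¹) * g⁻¹) := by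
      group
    rw [this]
    exact N.mul_mem hg' h1
  inv_mem' := by
    rintro g ⟨hg, hg'⟩
    refine ⟨inv_mem hg, ?_⟩
    have h1 : g⁻¹ * (k⁻¹ * g * k * g⁻¹)⁻¹ * g⁻¹⁻¹ ∈ N :=
      (mem_normalizer_iff.mp (inv_mem hg) _).mp (N.inv_mem hg')
    have : k⁻¹ * g⁻¹ * k * g⁻¹⁻¹ = g⁻¹ * (k⁻¹ * g * k * g⁻¹)⁻¹ * g⁻¹⁻¹ := by group
    rw [this]
    exact h1

theorem mem_cosetStab {N : Subgroup G} {k g : G} :
    g ∈ cosetStab N k ↔ g ∈ normalizer (N : Set G) ∧ k⁻¹ * g * k * g⁻¹ ∈ N := Iff.rfl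

theorem zpowers_le_normalizer {a : G} {K : Subgroup G} (h : a ∈ normalizer (K : Set G)) :
    zpowers a ≤ normalizer (K : Set G) := by
  rw [zpowers_le]; exact h

theorem mem_centralizer_singleton {a x : G} : x ∈ centralizer ({a} : Set G) ↔ a * x = x * a := by
  rw [mem_centralizer_iff]
  constructor
  · intro h; exact h a rfl
  · rintro h _ rfl; exact h

theorem centralizer_zpowers_eq (a : G) :
    centralizer ((zpowers a : Subgroup G) : Set G) = centralizer ({a} : Set G) := by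
  rw [Subgroup.zpowers_eq_closure, Subgroup.centralizer_closure]

/-- fixed point of a single element in an invariant coset -/
theorem exists_fixed_in_coset [Finite G] {a : G} {K N : Subgroup G} (haK : a ∈ normalizer (K : Set G))
    (hcop : (orderOf a).Coprime (Nat.card K)) (hNK : N ≤ K) (haN : a ∈ normalizer (N : Set G))
    {k : G} (hk : k ∈ K) (hfix : k⁻¹ * a * k * a⁻¹ ∈ N) :
    ∃ n ∈ N, a * (k * n) = (k * n) * a := by
  have hst : zpowers a ≤ cosetStab N k := by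
    rw [zpowers_le]; exact ⟨haN, hfix⟩
  obtain ⟨n, hn, hc⟩ := Helper30.exists_mem_centralizer_of_coset (A := zpowers a) (K := K) (N := N)
    (zpowers_le_normalizer haK) (by rw [Nat.card_zpowers]; exact hcop)
    (Or.inl inferInstance) hNK (zpowers_le_normalizer haN) hk (fun b hb => (hst hb).2)
  refine ⟨n, hn, ?_⟩
  rw [centralizer_zpowers_eq] at hc
  exact mem_centralizer_singleton.mp hc

/-- **Frobenius action on a section.** `T` and `a` act on the `q`-group `Q` and on `Z ⊴ Q`, `a` of prime order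
`r ≠ q` is fixed point free on `T`, and `C_Q(a) ≤ Z`: then `[Q, T] ≤ Z`. -/
theorem frob_section [Finite G] {q r : ℕ} (hq : q.Prime) (hr : r.Prime) (hqr : q ≠ r)
    (Q T Z : Subgroup G) (a : G) (har : orderOf a = r) (hQ : IsPGroup q Q)
    (hcop : (Nat.card T).Coprime (Nat.card Q))
    (hTQ : T ≤ normalizer (Q : Set G)) (haQ : a ∈ normalizer (Q : Set G))
    (haT : a ∈ normalizer (T : Set G)) (hfpf : T ⊓ centralizer ({a} : Set G) = ⊥)
    (hZQ : Z ≤ Q) (hQZ : Q ≤ normalizer (Z : Set G)) (hTZ : T ≤ normalizer (Z : Set G))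
    (haZ : a ∈ normalizer (Z : Set G)) (hD : Q ⊓ centralizer ({a} : Set G) ≤ Z) : ⁅Q, T⁆ ≤ Z := by
  have : Fact q.Prime := ⟨hq⟩
  set M := normalizer (Z : Set G) with hM
  have : (Z.subgroupOf M).Normal := Subgroup.normal_in_normalizer
  set π := QuotientGroup.mk' (Z.subgroupOf M) with hπ
  have hπeq : ∀ x y : M, π x = π y ↔ (x : G)⁻¹ * y ∈ Z := by
    intro x y
    rw [hπ, QuotientGroup.mk'_apply, QuotientGroup.mk'_apply, QuotientGroup.eq, mem_subgroupOf]
    rfl
  have hπone : ∀ x : M, π x = 1 ↔ (x : G) ∈ Z := by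
    intro x
    rw [hπ, QuotientGroup.mk'_apply, QuotientGroup.eq_one_iff, mem_subgroupOf]
  have hrq : (orderOf a).Coprime (Nat.card Q) := by
    obtain ⟨n, hn⟩ := IsPGroup.iff_card.mp hQ
    rw [hn, har]
    exact Nat.Coprime.pow_right _ ((Nat.coprime_primes hr hq).2 hqr.symm)
  have hdisj : Z ⊓ T = ⊥ :=
    (disjoint_of_coprime_natCard (Nat.Coprime.coprime_dvd_left (card_dvd_of_le hZQ) hcop.symm)).eq_bot
  have key := Helper66.frob_centralizes ((Q.subgroupOf M).map π) ((T.subgroupOf M).map π) (π ⟨a, haZ⟩) r q hr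
    hqr.symm
    (by
      rw [← map_pow]
      have : (⟨a, haZ⟩ : M) ^ r = 1 := Subtype.ext (by simpa using har ▸ pow_orderOf_eq_one a)
      rw [this, map_one])
    ((hQ.comap_subtype).map π)
    (by
      rintro _ ⟨t, ht, rfl⟩
      rw [SetLike.mem_coe, mem_subgroupOf] at ht
      apply Helper56.mem_normalizer_of_map_le
      rintro _ ⟨_, ⟨x, hx, rfl⟩, rfl⟩
      rw [SetLike.mem_coe, mem_subgroupOf] at hx
      refine ⟨t * x * t⁻¹, ?_, by simp⟩
      rw [SetLike.mem_coe, mem_subgroupOf]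
      exact (mem_normalizer_iff.mp (hTQ ht) _).mp hx)
    (by
      apply Helper56.mem_normalizer_of_map_le
      rintro _ ⟨_, ⟨x, hx, rfl⟩, rfl⟩
      rw [SetLike.mem_coe, mem_subgroupOf] at hx
      refine ⟨⟨a, haZ⟩ * x * ⟨a, haZ⟩⁻¹, ?_, by simp⟩
      rw [SetLike.mem_coe, mem_subgroupOf]
      exact (mem_normalizer_iff.mp haQ _).mp hx)
    (by
      rintro _ ⟨x, hx, rfl⟩
      rw [SetLike.mem_coe, mem_subgroupOf] at hx
      refine ⟨⟨a, haZ⟩ * x * ⟨a, haZ⟩⁻¹, ?_, by simp⟩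
      rw [SetLike.mem_coe, mem_subgroupOf]
      exact (mem_normalizer_iff.mp haT _).mp hx)
    (by
      rintro _ ⟨x, hx, rfl⟩ h
      rw [SetLike.mem_coe, mem_subgroupOf] at hx
      rw [← map_inv, ← map_mul, ← map_mul, eq_comm, hπeq] at h
      have h1 : a * (x : G) * a⁻¹ ∈ T := (mem_normalizer_iff.mp haT _).mp hx
      have h2 : (x : G)⁻¹ * (a * x * a⁻¹) ∈ Z ⊓ T := ⟨h, T.mul_mem (T.inv_mem hx) h1⟩
      rw [hdisj, mem_bot, inv_mul_eq_one] at h2
      have h3 : (x : G) ∈ T ⊓ centralizer ({a} : Set G) := by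
        refine ⟨hx, mem_centralizer_singleton.mpr ?_⟩
        calc a * (x : G) = (a * x * a⁻¹) * a := by group
          _ = x * a := by rw [← h2]
      rw [hfpf, mem_bot] at h3
      have : x = 1 := Subtype.ext h3
      rw [this, map_one])
    (by
      rintro _ ⟨x, hx, rfl⟩ h
      rw [SetLike.mem_coe, mem_subgroupOf] at hx
      rw [← map_inv, ← map_mul, ← map_mul, eq_comm, hπeq] at h
      have h' : (x : G)⁻¹ * a * x * a⁻¹ ∈ Z := by
        have : (x : G)⁻¹ * a * x * a⁻¹ = (x : G)⁻¹ * (a * x * a⁻¹) := by group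
        rw [this]; exact h
      obtain ⟨n, hn, hc⟩ := exists_fixed_in_coset haQ hrq hZQ haZ hx h'
      have h1 : (x : G) * n ∈ Z := hD ⟨Q.mul_mem hx (hZQ hn), mem_centralizer_singleton.mpr hc⟩
      have h2 : (x : G) ∈ Z := by
        have : (x : G) = (x * n) * n⁻¹ := by group
        rw [this]; exact Z.mul_mem h1 (Z.inv_mem hn)
      exact (hπone x).mpr h2)
    (by
      have h1 : Nat.card ((T.subgroupOf M).map π) ∣ Nat.card T := by
        rw [← Helper30.card_subgroupOf hTZ]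
        exact Subgroup.card_map_dvd _ _
      have h2 : Nat.card ((Q.subgroupOf M).map π) ∣ Nat.card Q := by
        rw [← Helper30.card_subgroupOf hQZ]
        exact Subgroup.card_map_dvd _ _
      exact Nat.Coprime.coprime_dvd_left h1 (Nat.Coprime.coprime_dvd_right h2 hcop))
  rw [commutator_le]
  intro x hx t ht
  have h1 := key (π ⟨t, hTZ ht⟩) ⟨⟨t, hTZ ht⟩, by rw [SetLike.mem_coe, mem_subgroupOf]; exact ht, rfl⟩
    (π ⟨x, hQZ hx⟩) ⟨⟨x, hQZ hx⟩, by rw [SetLike.mem_coe, mem_subgroupOf]; exact hx, rfl⟩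
  rw [← map_mul, ← map_mul, hπeq] at h1
  have h2 : (t * x)⁻¹ * (x * t) ∈ Z := h1
  have h3 : (t * x) * ((t * x)⁻¹ * (x * t)) * (t * x)⁻¹ ∈ Z :=
    (mem_normalizer_iff.mp (mul_mem (hTZ ht) (hQZ hx)) _).mp h2
  have : ⁅x, t⁆ = (t * x) * ((t * x)⁻¹ * (x * t)) * (t * x)⁻¹ := by
    rw [commutatorElement_def]; group
  rw [this]
  exact h3

end Cfsg.Agent.Lib.Helper56.BG
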