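import Mathlib
import Cfsg.Prelude
import Cfsg.Agent.S0055
import Cfsg.Agent.Lib.Helper65.ZGroupCoprime
import Cfsg.Agent.Lib.Helper56.CentrallyLarge3
import Cfsg.Agent.Lib.Helper56.BG36D1

set_option autoImplicit false

/-! Rung D of the B-G 3.6 ladder (non-abelian case): set-up and the case where `a` moves `Y₀`. -/

namespace Cfsg.Agent.Lib.Helper56.BG

open Subgroup Cfsg
open Cfsg.Agent.Lib.Helper30 (cj)
open scoped commutatorElement

variable {G : Type*} [Group G]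

/-- the hypotheses of rung D -/
structure HD (p q r : ℕ) (V Q T : Subgroup G) (a : G) : Prop where
  hp : p.Prime
  hq : q.Prime
  hr : r.Prime
  hq2 : q ≠ 2
  hr2 : r ≠ 2
  hpq : p ≠ q
  hpr : p ≠ r
  hqr : q ≠ r
  har : orderOf a = r
  hV : IsElementaryAbelian p V
  hQexp : ∀ x ∈ Q, x ^ q = 1
  hT : IsPGroup p T
  hQV : Q ≤ normalizer (V : Set G)
  hTV : T ≤ normalizer (V : Set G)
  haV : a ∈ normalizer (V : Set G)
  hTQ : T ≤ normalizer (Q : Set G)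
  haQ : a ∈ normalizer (Q : Set G)
  haT : a ∈ normalizer (T : Set G)
  hfaith : Q ⊓ centralizer (V : Set G) = ⊥
  hfpf : T ⊓ centralizer ({a} : Set G) = ⊥
  hQcl : ⁅Q, Q⁆ ≤ centralizer (Q : Set G)
  hQna : ⁅Q, Q⁆ ≠ ⊥
  hQT : ⁅Q, T⁆ = Q
  hmin : ∀ X : Subgroup G, X < Q → T ≤ normalizer (X : Set G) → a ∈ normalizer (X : Set G) →
    T ≤ centralizer (X : Set G)
  hcyc : IsCyclic ↥(Q ⊓ centralizer ({a} : Set G))

theorem isPGroup_of_exp {q : ℕ} {Q : Subgroup G} (h : ∀ x ∈ Q, x ^ q = 1) : IsPGroup q Q := by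
  intro x
  exact ⟨1, Subtype.ext (by simpa using h x x.2)⟩

theorem coprime_card_of_isPGroup [Finite G] {p q : ℕ} (hp : p.Prime) (hq : q.Prime) (hpq : p ≠ q)
    {A B : Subgroup G} (hA : IsPGroup p A) (hB : IsPGroup q B) : (Nat.card A).Coprime (Nat.card B) := by
  have := Fact.mk hp
  have := Fact.mk hq
  obtain ⟨m, hm⟩ := IsPGroup.iff_card.mp hA
  obtain ⟨n, hn⟩ := IsPGroup.iff_card.mp hB
  rw [hm, hn]
  exact Nat.Coprime.pow _ _ ((Nat.coprime_primes hp hq).2 hpq)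

theorem le_card_of_ne_bot [Finite G] {p : ℕ} (hp : p.Prime) {A : Subgroup G} (hA : IsPGroup p A)
    (hne : A ≠ ⊥) : p ≤ Nat.card A := by
  have := Fact.mk hp
  rcases hA.card_eq_or_dvd with h | h
  · exact absurd (Subgroup.card_eq_one.mp h) hne
  · exact Nat.le_of_dvd Nat.card_pos h

namespace HD

variable {p q r : ℕ} {V Q T : Subgroup G} {a : G}

theorem Y_le (_h : HD p q r V Q T a) : ⁅Q, Q⁆ ≤ Q :=
  Helper30.commutator_le_of_le_normalizer le_normalizer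

theorem Qp (h : HD p q r V Q T a) : IsPGroup q Q := isPGroup_of_exp h.hQexp

theorem Vp (h : HD p q r V Q T a) : IsPGroup p V := isPGroup_of_exp h.hV.2

theorem Y_ne (h : HD p q r V Q T a) : ⁅Q, Q⁆ ≠ Q := by
  intro he
  apply h.hQna
  rw [commutator_eq_bot_iff_le_centralizer]
  calc Q = ⁅Q, Q⁆ := he.symm
    _ ≤ _ := h.hQcl

theorem Y_lt (h : HD p q r V Q T a) : ⁅Q, Q⁆ < Q := lt_of_le_of_ne h.Y_le h.Y_ne

theorem TY (h : HD p q r V Q T a) : T ≤ normalizer ((⁅Q, Q⁆ : Subgroup G) : Set G) :=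
  Helper30.le_normalizer_commutator h.hTQ h.hTQ

theorem aY (h : HD p q r V Q T a) : a ∈ normalizer ((⁅Q, Q⁆ : Subgroup G) : Set G) :=
  Helper30.le_normalizer_commutator (zpowers_le_normalizer h.haQ) (zpowers_le_normalizer h.haQ)
    (mem_zpowers a)

theorem QY (_h : HD p q r V Q T a) : Q ≤ normalizer ((⁅Q, Q⁆ : Subgroup G) : Set G) :=
  Helper30.le_normalizer_commutator le_normalizer le_normalizer

theorem T_cent_Y (h : HD p q r V Q T a) : T ≤ centralizer ((⁅Q, Q⁆ : Subgroup G) : Set G) :=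
  h.hmin _ h.Y_lt h.TY h.aY

theorem comm_Y (h : HD p q r V Q T a) {y x : G} (hy : y ∈ ⁅Q, Q⁆) (hx : x ∈ Q) : x * y = y * x :=
  mem_centralizer_iff.mp (h.hQcl hy) x hx

theorem Y_comm (h : HD p q r V Q T a) : IsMulCommutative (⁅Q, Q⁆ : Subgroup G) := by
  rw [← le_centralizer_iff_isMulCommutative]
  exact h.hQcl.trans (Helper56.centralizer_anti h.Y_le)

theorem Y_elab (h : HD p q r V Q T a) : IsElementaryAbelian q (⁅Q, Q⁆ : Subgroup G) :=
  ⟨h.Y_comm, fun x hx => h.hQexp x (h.Y_le hx)⟩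

theorem cop_TQ [Finite G] (h : HD p q r V Q T a) : (Nat.card T).Coprime (Nat.card Q) :=
  coprime_card_of_isPGroup h.hp h.hq h.hpq h.hT h.Qp

theorem cop_aQ [Finite G] (h : HD p q r V Q T a) : (orderOf a).Coprime (Nat.card Q) := by
  have := Fact.mk h.hq
  obtain ⟨n, hn⟩ := IsPGroup.iff_card.mp h.Qp
  rw [hn, h.har]
  exact Nat.Coprime.pow_right _ ((Nat.coprime_primes h.hr h.hq).2 h.hqr.symm)

/-- step (i): `C_Q(a)` lies in no proper invariant normal subgroup of `Q` -/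
theorem noZ [Finite G] (h : HD p q r V Q T a) (Z : Subgroup G) (hZQ : Z ≤ Q) (hne : Z ≠ Q)
    (hQZ : Q ≤ normalizer (Z : Set G)) (hTZ : T ≤ normalizer (Z : Set G))
    (haZ : a ∈ normalizer (Z : Set G)) : ¬ Q ⊓ centralizer ({a} : Set G) ≤ Z := by
  intro hD
  have := frob_section h.hq h.hr h.hqr Q T Z a h.har h.Qp h.cop_TQ h.hTQ h.haQ h.haT h.hfpf hZQ hQZ hTZ haZ hD
  rw [h.hQT] at this
  exact hne (le_antisymm hZQ this)

theorem card_D_dvd (h : HD p q r V Q T a) : Nat.card ↥(Q ⊓ centralizer ({a} : Set G)) ∣ q := by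
  have := h.hcyc
  rw [← IsCyclic.exponent_eq_card]
  apply Monoid.exponent_dvd_of_forall_pow_eq_one
  intro g
  exact Subtype.ext (by simpa using h.hQexp g g.2.1)

theorem normalizer_ZQ {x : G} (hx : x ∈ normalizer (Q : Set G)) :
    x ∈ normalizer ((Q ⊓ centralizer (Q : Set G) : Subgroup G) : Set G) :=
  Helper30.le_normalizer_inf (zpowers_le_normalizer hx)
    (zpowers_le_normalizer (Helper56.normalizer_le_normalizer_centralizer Q hx)) (mem_zpowers x)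

/-- step (ii): `C_Y(a) = 1` -/
theorem CY [Finite G] (h : HD p q r V Q T a) : ⁅Q, Q⁆ ⊓ centralizer ({a} : Set G) = ⊥ := by
  by_contra hne
  have hle : ⁅Q, Q⁆ ⊓ centralizer ({a} : Set G) ≤ Q ⊓ centralizer ({a} : Set G) :=
    inf_le_inf_right _ h.Y_le
  have h1 : Nat.card ↥(⁅Q, Q⁆ ⊓ centralizer ({a} : Set G)) ∣ q := (card_dvd_of_le hle).trans h.card_D_dvd
  have h2 : Nat.card ↥(⁅Q, Q⁆ ⊓ centralizer ({a} : Set G)) = q := by
    rcases (Nat.dvd_prime h.hq).mp h1 with h3 | h3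
    · exact absurd (Subgroup.card_eq_one.mp h3) hne
    · exact h3
  have h3 : ⁅Q, Q⁆ ⊓ centralizer ({a} : Set G) = Q ⊓ centralizer ({a} : Set G) := by
    apply Subgroup.eq_of_le_of_card_ge hle
    rw [h2]
    exact Nat.le_of_dvd h.hq.pos h.card_D_dvd
  apply h.noZ (Q ⊓ centralizer (Q : Set G)) inf_le_left
  · intro he
    apply h.hQna
    rw [commutator_eq_bot_iff_le_centralizer]
    exact inf_eq_left.mp he
  · intro x hx; exact normalizer_ZQ (le_normalizer hx)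
  · intro x hx; exact normalizer_ZQ (h.hTQ hx)
  · exact normalizer_ZQ h.haQ
  · rw [← h3]
    exact inf_le_left.trans (le_inf h.Y_le h.hQcl)

/-- an element `w ∈ Y` whose coset `w Y₀` is fixed by `a` lies in `Y₀` -/
theorem mem_of_fixed_coset [Finite G] (h : HD p q r V Q T a) {Y₀ : Subgroup G} (hY₀ : Y₀ ≤ ⁅Q, Q⁆)
    (ha₀ : a ∈ normalizer (Y₀ : Set G)) {w : G} (hw : w ∈ ⁅Q, Q⁆) (hfix : w⁻¹ * a * w * a⁻¹ ∈ Y₀) :
    w ∈ Y₀ := by
  obtain ⟨n, hn, hc⟩ := exists_fixed_in_coset h.aY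
    (Nat.Coprime.coprime_dvd_right (card_dvd_of_le h.Y_le) h.cop_aQ) hY₀ ha₀ hw hfix
  have h1 : w * n ∈ ⁅Q, Q⁆ ⊓ centralizer ({a} : Set G) :=
    ⟨mul_mem hw (hY₀ hn), mem_centralizer_singleton.mpr hc⟩
  rw [h.CY, mem_bot] at h1
  have : w = n⁻¹ := eq_inv_of_mul_eq_one_left h1
  rw [this]
  exact inv_mem hn

/-! ### the module `V' = [V, Y]` -/

theorem YV (h : HD p q r V Q T a) : ⁅Q, Q⁆ ≤ normalizer (V : Set G) := h.Y_le.trans h.hQV

theorem V'_le (h : HD p q r V Q T a) : ⁅V, ⁅Q, Q⁆⁆ ≤ V := Helper30.commutator_le_of_le_normalizer h.YV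

theorem V'_ne (h : HD p q r V Q T a) : ⁅V, ⁅Q, Q⁆⁆ ≠ ⊥ := by
  intro he
  rw [commutator_eq_bot_iff_le_centralizer, le_centralizer_iff] at he
  apply h.hQna
  rw [eq_bot_iff, ← h.hfaith]
  exact le_inf h.Y_le he

theorem V'_comm (h : HD p q r V Q T a) : IsMulCommutative (⁅V, ⁅Q, Q⁆⁆ : Subgroup G) :=
  Helper56.isMulCommutative_of_le h.hV.1 h.V'_le

theorem V'p (h : HD p q r V Q T a) : IsPGroup p (⁅V, ⁅Q, Q⁆⁆ : Subgroup G) := h.Vp.to_le h.V'_le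

theorem V'_fix [Finite G] (h : HD p q r V Q T a) :
    ⁅V, ⁅Q, Q⁆⁆ ⊓ centralizer ((⁅Q, Q⁆ : Subgroup G) : Set G) = ⊥ := by
  have := h.hV.1
  have h1 := (Cfsg.Agent.S0055.result ⁅Q, Q⁆ V h.YV
    (coprime_card_of_isPGroup h.hq h.hp h.hpq.symm (h.Qp.to_le h.Y_le) h.Vp)).1
  rw [eq_bot_iff, ← h1]
  exact le_inf (le_inf (inf_le_left.trans h.V'_le) inf_le_right) inf_le_left

theorem QV' (h : HD p q r V Q T a) : Q ≤ normalizer ((⁅V, ⁅Q, Q⁆⁆ : Subgroup G) : Set G) :=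
  Helper30.le_normalizer_commutator h.hQV h.QY

theorem aV' (h : HD p q r V Q T a) : a ∈ normalizer ((⁅V, ⁅Q, Q⁆⁆ : Subgroup G) : Set G) :=
  Helper30.le_normalizer_commutator (zpowers_le_normalizer h.haV) (zpowers_le_normalizer h.aY)
    (mem_zpowers a)

theorem card_V'a_le [Finite G] (h : HD p q r V Q T a) :
    Nat.card ↥(⁅V, ⁅Q, Q⁆⁆ ⊓ centralizer ({a} : Set G)) ≤ Nat.card ↥(V ⊓ centralizer ({a} : Set G)) :=
  Nat.le_of_dvd Nat.card_pos (card_dvd_of_le (inf_le_inf_right _ h.V'_le))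

theorem cop_V'q [Finite G] (h : HD p q r V Q T a) {W : Subgroup G} (hW : W ≤ V) :
    (Nat.card W).Coprime q := by
  have := Fact.mk h.hp
  obtain ⟨n, hn⟩ := IsPGroup.iff_card.mp (h.Vp.to_le hW)
  rw [hn]
  exact Nat.Coprime.pow_left _ ((Nat.coprime_primes h.hp h.hq).2 h.hpq)

/-- `Q` normalizes `V₁ = C_{V'}(Y₀)` -/
theorem QV₁ (h : HD p q r V Q T a) {Y₀ : Subgroup G} (hY₀ : Y₀ ≤ ⁅Q, Q⁆) :
    Q ≤ normalizer ((⁅V, ⁅Q, Q⁆⁆ ⊓ centralizer (Y₀ : Set G) : Subgroup G) : Set G) := by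
  apply Helper30.le_normalizer_inf h.QV'
  refine le_trans ?_ (Helper56.normalizer_le_normalizer_centralizer Y₀)
  refine le_trans ?_ (centralizer_le_normalizer (Y₀ : Set G))
  rw [le_centralizer_iff]
  exact hY₀.trans h.hQcl

/-- `V₁ = C_{V'}(Y₀) ≠ 1` has order at least `p²` -/
theorem sq_le_card_V₁ [Finite G] (h : HD p q r V Q T a) {Y₀ : Subgroup G} (hY₀ : Y₀ ≤ ⁅Q, Q⁆)
    (hne : ⁅V, ⁅Q, Q⁆⁆ ⊓ centralizer (Y₀ : Set G) ≠ ⊥) :
    p ^ 2 ≤ Nat.card ↥(⁅V, ⁅Q, Q⁆⁆ ⊓ centralizer (Y₀ : Set G)) := by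
  have := Fact.mk h.hp
  obtain ⟨n, hn⟩ := IsPGroup.iff_card.mp (h.V'p.to_le (inf_le_left (b := centralizer (Y₀ : Set G))))
  rw [hn]
  apply Nat.pow_le_pow_right h.hp.pos
  by_contra hlt
  have hn1 : n = 0 ∨ n = 1 := by omega
  rcases hn1 with rfl | rfl
  · rw [pow_zero] at hn
    exact hne (Subgroup.card_eq_one.mp hn)
  · rw [pow_one] at hn
    have hcyc : IsCyclic ↥(⁅V, ⁅Q, Q⁆⁆ ⊓ centralizer (Y₀ : Set G)) := isCyclic_of_prime_card hn
    have h1 : ⁅Q, Q⁆ ≤ centralizer ((⁅V, ⁅Q, Q⁆⁆ ⊓ centralizer (Y₀ : Set G) : Subgroup G) : Set G) := by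
      rw [commutator_le]
      intro x hx y hy
      exact Helper65.commutator_mem_centralizer_of_isCyclic _ (h.QV₁ hY₀ hx) (h.QV₁ hY₀ hy)
    apply hne
    rw [eq_bot_iff, ← h.V'_fix]
    exact le_inf inf_le_left (le_centralizer_iff.mp h1)

end HD

end Cfsg.Agent.Lib.Helper56.BG
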