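import Mathlib
import Cfsg.Prelude
import Cfsg.Agent.Lib.Helper56.BG36D2

set_option autoImplicit false

/-! Rung D of the B-G 3.6 ladder (non-abelian case): tools for the case where `a` normalizes `Y₀`. -/

namespace Cfsg.Agent.Lib.Helper56.BG

open Subgroup Cfsg
open Cfsg.Agent.Lib.Helper30 (cj)
open scoped commutatorElement Pointwise

variable {G : Type*} [Group G]

theorem cj_lt (u : G) {H K : Subgroup G} (h : H < K) : cj u H < cj u K := by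
  refine lt_of_le_of_ne (Helper30.cj_mono u h.le) ?_
  intro he
  have := congrArg (cj u⁻¹) he
  rw [Helper30.cj_inv_cj, Helper30.cj_inv_cj] at this
  exact h.ne this

theorem max_cj {B₀ B : Subgroup G} {u : G} (hu : u ∈ normalizer (B : Set G)) (h : B₀ < B)
    (hmax : ∀ X : Subgroup G, B₀ < X → X ≤ B → X = B) :
    cj u B₀ < B ∧ ∀ X : Subgroup G, cj u B₀ < X → X ≤ B → X = B := by
  have hB : cj u B = B := Helper30.cj_eq_of_mem_normalizer hu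
  have hB' : cj u⁻¹ B = B := Helper30.cj_eq_of_mem_normalizer (inv_mem hu)
  refine ⟨hB ▸ cj_lt u h, ?_⟩
  intro X hX hXB
  have h1 : B₀ < cj u⁻¹ X := by
    have := cj_lt u⁻¹ hX
    rwa [Helper30.cj_inv_cj] at this
  have h2 : cj u⁻¹ X ≤ B := hB' ▸ Helper30.cj_mono u⁻¹ hXB
  have h3 := hmax _ h1 h2
  have := congrArg (cj u) h3
  rwa [Helper30.cj_cj_inv, hB] at this

/-- the centre of `Q` modulo the central subgroup `Y₀` -/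
def Zmod (Q Y₀ : Subgroup G) (hcen : ∀ y ∈ Y₀, ∀ x ∈ Q, x * y = y * x) : Subgroup G where
  carrier := {x | x ∈ Q ∧ ∀ g ∈ Q, x⁻¹ * g * x * g⁻¹ ∈ Y₀}
  one_mem' := ⟨one_mem _, fun g _ => by simp⟩
  mul_mem' := by
    rintro x y ⟨hx, hx'⟩ ⟨hy, hy'⟩
    refine ⟨mul_mem hx hy, fun g hg => ?_⟩
    have he := hcen _ (hx' g hg) y⁻¹ (inv_mem hy)
    have h1 : (x * y)⁻¹ * g * (x * y) * g⁻¹ = (y⁻¹ * (x⁻¹ * g * x * g⁻¹)) * (g * y * g⁻¹) := by group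
    have h2 : (x⁻¹ * g * x * g⁻¹) * y⁻¹ * (g * y * g⁻¹) = (x⁻¹ * g * x * g⁻¹) * (y⁻¹ * g * y * g⁻¹) := by
      group
    rw [h1, he, h2]
    exact mul_mem (hx' g hg) (hy' g hg)
  inv_mem' := by
    rintro x ⟨hx, hx'⟩
    refine ⟨inv_mem hx, fun g hg => ?_⟩
    have he := hcen _ (inv_mem (hx' g hg)) x hx
    have h1 : x⁻¹⁻¹ * g * x⁻¹ * g⁻¹ = (x * (x⁻¹ * g * x * g⁻¹)⁻¹) * x⁻¹ := by group
    rw [h1, he, mul_inv_cancel_right]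
    exact inv_mem (hx' g hg)

theorem mem_Zmod {Q Y₀ : Subgroup G} {hcen : ∀ y ∈ Y₀, ∀ x ∈ Q, x * y = y * x} {x : G} :
    x ∈ Zmod Q Y₀ hcen ↔ x ∈ Q ∧ ∀ g ∈ Q, x⁻¹ * g * x * g⁻¹ ∈ Y₀ := Iff.rfl

theorem mem_normalizer_Zmod [Finite G] {Q Y₀ : Subgroup G} {hcen : ∀ y ∈ Y₀, ∀ x ∈ Q, x * y = y * x}
    {b : G} (hbQ : b ∈ normalizer (Q : Set G)) (hbY : b ∈ normalizer (Y₀ : Set G)) :
    b ∈ normalizer ((Zmod Q Y₀ hcen : Subgroup G) : Set G) := by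
  apply Helper56.mem_normalizer_of_map_le
  rintro _ ⟨x, ⟨hx, hx'⟩, rfl⟩
  refine ⟨(mem_normalizer_iff.mp hbQ x).mp hx, fun g hg => ?_⟩
  have hg' : b⁻¹ * g * b⁻¹⁻¹ ∈ Q := (mem_normalizer_iff.mp (inv_mem hbQ) g).mp hg
  have h1 := (mem_normalizer_iff.mp hbY _).mp (hx' _ hg')
  have h2 : ((MulAut.conj b).toMonoidHom x)⁻¹ * g * (MulAut.conj b).toMonoidHom x * g⁻¹ =
      b * (x⁻¹ * (b⁻¹ * g * b⁻¹⁻¹) * x * (b⁻¹ * g * b⁻¹⁻¹)⁻¹) * b⁻¹ := by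
    simp only [MulEquiv.coe_toMonoidHom, MulAut.conj_apply]
    group
  rw [h2]
  exact h1

namespace HD

variable {p q r : ℕ} {V Q T : Subgroup G} {a : G}

theorem psi_mem (_h : HD p q r V Q T a) {c u : G} (hc : c ∈ Q) (hu : u ∈ Q) :
    c⁻¹ * u * c * u⁻¹ ∈ ⁅Q, Q⁆ := by
  have : c⁻¹ * u * c * u⁻¹ = ⁅c⁻¹, u⁆ := by rw [commutatorElement_def, inv_inv]
  rw [this]
  exact commutator_mem_commutator (inv_mem hc) hu

theorem psi_mul (h : HD p q r V Q T a) {c u v : G} (hc : c ∈ Q) (hu : u ∈ Q) (hv : v ∈ Q) :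
    c⁻¹ * (u * v) * c * (u * v)⁻¹ = (c⁻¹ * u * c * u⁻¹) * (c⁻¹ * v * c * v⁻¹) := by
  have he := h.comm_Y (h.psi_mem hc hv) (inv_mem hu)
  calc c⁻¹ * (u * v) * c * (u * v)⁻¹ = c⁻¹ * u * c * ((c⁻¹ * v * c * v⁻¹) * u⁻¹) := by group
    _ = c⁻¹ * u * c * (u⁻¹ * (c⁻¹ * v * c * v⁻¹)) := by rw [he]
    _ = _ := by group

theorem psi_zpow (h : HD p q r V Q T a) {c g : G} (hc : c ∈ Q) (hg : g ∈ Q) (k : ℤ) :
    c⁻¹ * g ^ k * c * (g ^ k)⁻¹ = (c⁻¹ * g * c * g⁻¹) ^ k := by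
  let ψ : Q →* G := MonoidHom.mk' (fun u => c⁻¹ * (u : G) * c * (u : G)⁻¹)
    (fun u v => h.psi_mul hc u.2 v.2)
  have := map_zpow ψ ⟨g, hg⟩ k
  simpa [ψ] using this

/-- `u ↦ [c⁻¹, u]` is onto `Y` modulo `Y₀` -/
theorem exists_psi (h : HD p q r V Q T a) {Y₀ : Subgroup G} (hlt : Y₀ < ⁅Q, Q⁆)
    (hmax : ∀ X : Subgroup G, Y₀ < X → X ≤ ⁅Q, Q⁆ → X = ⁅Q, Q⁆) {c g₀ : G} (hc : c ∈ Q) (hg₀ : g₀ ∈ Q)
    (hz : c⁻¹ * g₀ * c * g₀⁻¹ ∉ Y₀) {w : G} (hw : w ∈ ⁅Q, Q⁆) :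
    ∃ u ∈ Q, ∃ y ∈ Y₀, w = y * (c⁻¹ * u * c * u⁻¹) := by
  have hzY := h.psi_mem hc hg₀
  have h1 : Y₀ ⊔ zpowers (c⁻¹ * g₀ * c * g₀⁻¹) = ⁅Q, Q⁆ := by
    apply hmax
    · refine lt_of_le_of_ne le_sup_left ?_
      intro he
      apply hz
      rw [he]
      exact le_sup_right (a := Y₀) (mem_zpowers _)
    · exact sup_le hlt.le (by rw [zpowers_le]; exact hzY)
  have h2 : Y₀ ≤ centralizer ((zpowers (c⁻¹ * g₀ * c * g₀⁻¹) : Subgroup G) : Set G) := by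
    rw [centralizer_zpowers_eq]
    intro y hy
    rw [mem_centralizer_singleton]
    exact h.comm_Y (hlt.le hy) (h.Y_le hzY)
  have h3 := Helper56.sup_coe_eq_mul_of_le_centralizer h2
  have h4 : w ∈ ((Y₀ ⊔ zpowers (c⁻¹ * g₀ * c * g₀⁻¹) : Subgroup G) : Set G) := by
    rw [h1]; exact hw
  rw [h3] at h4
  obtain ⟨y, hy, z', hz', rfl⟩ := Set.mem_mul.mp h4
  obtain ⟨k, rfl⟩ := mem_zpowers_iff.mp hz'
  exact ⟨g₀ ^ k, zpow_mem hg₀ k, y, hy, by rw [h.psi_zpow hc hg₀ k]⟩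

end HD

end Cfsg.Agent.Lib.Helper56.BG
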