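import Mathlib
import Cfsg.Prelude
import Cfsg.Agent.Lib.Helper56.BG36D3

set_option autoImplicit false

/-! Rung D of the B-G 3.6 ladder (non-abelian case): `a` moves the hyperplanes `B₊`, `B₋`. -/

namespace Cfsg.Agent.Lib.Helper56.BG

open Subgroup Cfsg
open Cfsg.Agent.Lib.Helper30 (cj)
open scoped commutatorElement Pointwise

variable {G : Type*} [Group G]

namespace HD

variable {p q r : ℕ} {V Q T : Subgroup G} {a : G}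

theorem not_fix [Finite G] (h : HD p q r V Q T a) {Y₀ : Subgroup G} (hY₀ : Y₀ ≤ ⁅Q, Q⁆)
    (ha₀ : a ∈ normalizer (Y₀ : Set G)) {c w : G} (hca : a * c = c * a) (hw : w ∈ ⁅Q, Q⁆) (hwn : w ∉ Y₀)
    {B' : Subgroup G} (hB' : B' ⊓ ⁅Q, Q⁆ ≤ Y₀) (hcw : c * w ∈ B') : cj a B' ≠ B' := by
  intro he
  have h1 : a * (c * w) * a⁻¹ ∈ B' := by
    have := Helper30.conj_mem_cj (g := a) hcw
    rwa [he] at this
  have h2 : a * (c * w) * a⁻¹ = c * (a * w * a⁻¹) := by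
    calc a * (c * w) * a⁻¹ = (a * c) * w * a⁻¹ := by group
      _ = c * (a * w * a⁻¹) := by rw [hca]; group
  rw [h2] at h1
  have h3 : w⁻¹ * a * w * a⁻¹ ∈ B' := by
    have : w⁻¹ * a * w * a⁻¹ = (c * w)⁻¹ * (c * (a * w * a⁻¹)) := by group
    rw [this]
    exact mul_mem (inv_mem hcw) h1
  have h4 : w⁻¹ * a * w * a⁻¹ ∈ ⁅Q, Q⁆ := by
    have : w⁻¹ * a * w * a⁻¹ = w⁻¹ * (a * w * a⁻¹) := by group
    rw [this]
    exact mul_mem (inv_mem hw) ((mem_normalizer_iff.mp h.aY w).mp hw)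
  exact hwn (h.mem_of_fixed_coset hY₀ ha₀ hw (hB' ⟨h3, h4⟩))

theorem not_swap [Finite G] (h : HD p q r V Q T a) {Y₀ : Subgroup G} (hY₀ : Y₀ ≤ ⁅Q, Q⁆)
    (ha₀ : a ∈ normalizer (Y₀ : Set G)) {c w₁ w₂ : G} (hca : a * c = c * a) (hw₁ : w₁ ∈ ⁅Q, Q⁆)
    (hw₁n : w₁ ∉ Y₀) (hw₂ : w₂ ∈ ⁅Q, Q⁆) (hprod : w₁ * w₂ ∈ Y₀) {B₁ B₂ : Subgroup G}
    (hB₂ : B₂ ⊓ ⁅Q, Q⁆ ≤ Y₀) (h1 : c * w₁ ∈ B₁) (h2 : c * w₂ ∈ B₂) (i : ℕ) : cj (a ^ i) B₁ ≠ B₂ := by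
  intro he
  obtain ⟨b, hb⟩ : ∃ b, b = a ^ i := ⟨_, rfl⟩
  rw [← hb] at he
  have hbc : b * c = c * b := by
    rw [hb]
    exact ((show Commute a c from hca).pow_left i)
  have hbY : b ∈ normalizer ((⁅Q, Q⁆ : Subgroup G) : Set G) := hb ▸ pow_mem h.aY i
  have hbY₀ : b ∈ normalizer (Y₀ : Set G) := hb ▸ pow_mem ha₀ i
  have h3 : b * (c * w₁) * b⁻¹ ∈ B₂ := by
    have := Helper30.conj_mem_cj (g := b) h1
    rwa [he] at this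
  have h4 : b * (c * w₁) * b⁻¹ = c * (b * w₁ * b⁻¹) := by
    calc b * (c * w₁) * b⁻¹ = (b * c) * w₁ * b⁻¹ := by group
      _ = c * (b * w₁ * b⁻¹) := by rw [hbc]; group
  rw [h4] at h3
  have hbw : b * w₁ * b⁻¹ ∈ ⁅Q, Q⁆ := (mem_normalizer_iff.mp hbY w₁).mp hw₁
  have h5 : w₂⁻¹ * (b * w₁ * b⁻¹) ∈ Y₀ := by
    apply hB₂
    refine ⟨?_, Subgroup.mul_mem _ (Subgroup.inv_mem _ hw₂) hbw⟩
    have : w₂⁻¹ * (b * w₁ * b⁻¹) = (c * w₂)⁻¹ * (c * (b * w₁ * b⁻¹)) := by group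
    rw [this]
    exact B₂.mul_mem (B₂.inv_mem h2) h3
  -- `s = w₁ (b w₁ b⁻¹) ∈ Y₀`
  have hs : w₁ * (b * w₁ * b⁻¹) ∈ Y₀ := by
    have : w₁ * (b * w₁ * b⁻¹) = (w₁ * w₂) * (w₂⁻¹ * (b * w₁ * b⁻¹)) := by group
    rw [this]
    exact mul_mem hprod h5
  by_cases hri : r ∣ i
  · -- `b = 1`
    have hb1 : b = 1 := by
      rw [hb]
      exact orderOf_dvd_iff_pow_eq_one.mp (h.har ▸ hri)
    rw [hb1] at hs
    simp only [one_mul, inv_one, mul_one] at hs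
    obtain ⟨m, hm⟩ := h.hq.odd_of_ne_two h.hq2
    apply hw₁n
    have hq1 : w₁ ^ q = 1 := h.hQexp _ (h.Y_le hw₁)
    have : w₁ = (w₁ * w₁) ^ (m + 1) := by
      rw [← pow_two, ← pow_mul]
      have : 2 * (m + 1) = q + 1 := by omega
      rw [this, pow_succ, hq1, one_mul]
    rw [this]
    exact pow_mem hs _
  · -- `b * b` fixes the coset `w₁ Y₀`
    have hs' : b * (w₁ * (b * w₁ * b⁻¹)) * b⁻¹ ∈ Y₀ := (mem_normalizer_iff.mp hbY₀ _).mp hs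
    have hcomm : (b * w₁ * b⁻¹) * w₁⁻¹ = w₁⁻¹ * (b * w₁ * b⁻¹) :=
      h.comm_Y (inv_mem hw₁) (h.Y_le hbw)
    have h6 : w₁⁻¹ * (b * b) * w₁ * (b * b)⁻¹ ∈ Y₀ := by
      have : w₁⁻¹ * (b * b) * w₁ * (b * b)⁻¹ =
          (w₁ * (b * w₁ * b⁻¹))⁻¹ * (b * (w₁ * (b * w₁ * b⁻¹)) * b⁻¹) := by
        calc w₁⁻¹ * (b * b) * w₁ * (b * b)⁻¹
            = (b * w₁ * b⁻¹)⁻¹ * ((b * w₁ * b⁻¹) * w₁⁻¹) * (b * (b * w₁ * b⁻¹) * b⁻¹) := by group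
          _ = (b * w₁ * b⁻¹)⁻¹ * (w₁⁻¹ * (b * w₁ * b⁻¹)) * (b * (b * w₁ * b⁻¹) * b⁻¹) := by rw [hcomm]
          _ = _ := by group
      rw [this]
      exact mul_mem (inv_mem hs) hs'
    have h7 : b * b ∈ cosetStab Y₀ w₁ := ⟨mul_mem hbY₀ hbY₀, h6⟩
    have hcop : Nat.Coprime (2 * i) r := by
      apply Nat.Coprime.mul_left
      · exact (Nat.coprime_primes Nat.prime_two h.hr).2 (Ne.symm h.hr2)
      · exact ((Nat.Prime.coprime_iff_not_dvd h.hr).2 hri).symm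
    obtain ⟨m, -, hm⟩ := Nat.exists_mul_mod_eq_one_of_coprime hcop h.hr.one_lt
    have h8 : a = (b * b) ^ m := by
      rw [hb, ← pow_add, ← two_mul, ← pow_mul, ← pow_mod_orderOf, h.har, hm, pow_one]
    have h9 : a ∈ cosetStab Y₀ w₁ := by
      rw [h8]; exact pow_mem h7 m
    exact hw₁n (h.mem_of_fixed_coset hY₀ ha₀ hw₁ h9.2)

end HD

end Cfsg.Agent.Lib.Helper56.BG
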