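import Mathlib
import Cfsg.Prelude
import Cfsg.Agent.Lib.Helper56.BG36D4

set_option autoImplicit false

/-! Rung D of the B-G 3.6 ladder (non-abelian case): the main argument, relative to rungs A and B. -/

namespace Cfsg.Agent.Lib.Helper56.BG

open Subgroup Cfsg
open Cfsg.Agent.Lib.Helper30 (cj)
open scoped commutatorElement Pointwise

variable {G : Type*} [Group G]

/-- the text of rung B for the prime `q` -/
def StmtB (G : Type*) [Group G] (q : ℕ) : Prop :=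
  ∀ W B : Subgroup G, IsMulCommutative W → W ≠ ⊥ → IsElementaryAbelian q B → (Nat.card W).Coprime q →
    B ≤ normalizer (W : Set G) → W ⊓ centralizer (B : Set G) = ⊥ →
    ∃ B₀ : Subgroup G, B₀ < B ∧ (∀ X : Subgroup G, B₀ < X → X ≤ B → X = B) ∧
      W ⊓ centralizer (B₀ : Set G) ≠ ⊥

/-- the text of rung A (first part) for the element `a` -/
def StmtA1 {G : Type*} [Group G] (a : G) : Prop :=
  ∀ W B B₁ : Subgroup G, IsMulCommutative W → IsMulCommutative B → B ≤ normalizer (W : Set G) →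
    W ⊓ centralizer (B : Set G) = ⊥ → a ∈ normalizer (W : Set G) → a ∈ normalizer (B : Set G) →
    B₁ < B → (∀ X : Subgroup G, B₁ < X → X ≤ B → X = B) → cj a B₁ ≠ B₁ →
    Nat.card ↥(W ⊓ centralizer (B₁ : Set G)) ≤ Nat.card ↥(W ⊓ centralizer ({a} : Set G))

/-- the text of rung A (second part) for the element `a` -/
def StmtA2 {G : Type*} [Group G] (a : G) : Prop :=
  ∀ W B B₁ B₂ : Subgroup G, IsMulCommutative W → IsMulCommutative B → B ≤ normalizer (W : Set G) →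
    W ⊓ centralizer (B : Set G) = ⊥ → a ∈ normalizer (W : Set G) → a ∈ normalizer (B : Set G) →
    B₁ < B → (∀ X : Subgroup G, B₁ < X → X ≤ B → X = B) →
    B₂ < B → (∀ X : Subgroup G, B₂ < X → X ≤ B → X = B) → cj a B₁ ≠ B₁ → cj a B₂ ≠ B₂ →
    (∀ i : ℕ, cj (a ^ i) B₁ ≠ B₂) →
    Nat.card ↥(W ⊓ centralizer (B₁ : Set G)) * Nat.card ↥(W ⊓ centralizer (B₂ : Set G)) ≤
      Nat.card ↥(W ⊓ centralizer ({a} : Set G))

namespace HD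

variable {p q r : ℕ} {V Q T : Subgroup G} {a : G}

theorem cen_Y₀ (h : HD p q r V Q T a) {Y₀ : Subgroup G} (hY₀ : Y₀ ≤ ⁅Q, Q⁆) :
    ∀ y ∈ Y₀, ∀ x ∈ Q, x * y = y * x := fun _ hy _ hx => h.comm_Y (hY₀ hy) hx

theorem normalizer_Y₀_of_mem (h : HD p q r V Q T a) {Y₀ : Subgroup G} (hY₀ : Y₀ ≤ ⁅Q, Q⁆) :
    Q ≤ normalizer (Y₀ : Set G) := by
  refine le_trans ?_ (centralizer_le_normalizer (Y₀ : Set G))
  rw [le_centralizer_iff]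
  exact hY₀.trans h.hQcl

theorem T_normalizer_Y₀ (h : HD p q r V Q T a) {Y₀ : Subgroup G} (hY₀ : Y₀ ≤ ⁅Q, Q⁆) :
    T ≤ normalizer (Y₀ : Set G) := by
  refine le_trans ?_ (centralizer_le_normalizer (Y₀ : Set G))
  exact h.T_cent_Y.trans (Helper56.centralizer_anti hY₀)

/-- there is `c ∈ C_Q(a)` and `g₀ ∈ Q` with `[c⁻¹, g₀] ∉ Y₀` -/
theorem exists_c [Finite G] (h : HD p q r V Q T a) {Y₀ : Subgroup G} (hlt : Y₀ < ⁅Q, Q⁆)
    (ha₀ : a ∈ normalizer (Y₀ : Set G)) :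
    ∃ c ∈ Q, a * c = c * a ∧ ∃ g₀ ∈ Q, c⁻¹ * g₀ * c * g₀⁻¹ ∉ Y₀ := by
  have hn := h.noZ (Zmod Q Y₀ (h.cen_Y₀ hlt.le)) (fun x hx => hx.1)
    (by
      intro he
      apply hlt.not_ge
      rw [commutator_le]
      intro x hx y hy
      have hx' : x⁻¹ ∈ Zmod Q Y₀ (h.cen_Y₀ hlt.le) := by rw [he]; exact inv_mem hx
      have := hx'.2 y hy
      rwa [inv_inv] at this)
    (fun x hx => mem_normalizer_Zmod (le_normalizer hx) (h.normalizer_Y₀_of_mem hlt.le hx))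
    (fun x hx => mem_normalizer_Zmod (h.hTQ hx) (h.T_normalizer_Y₀ hlt.le hx))
    (mem_normalizer_Zmod h.haQ ha₀)
  obtain ⟨c, hc, hcZ⟩ := SetLike.not_le_iff_exists.mp hn
  refine ⟨c, hc.1, mem_centralizer_singleton.mp hc.2, ?_⟩
  by_contra hcon
  push Not at hcon
  exact hcZ ⟨hc.1, hcon⟩

/-- step (v): the case where `a` normalizes `Y₀` -/
theorem caseV [Finite G] (h : HD p q r V Q T a) (hB : StmtB G q) (hA2 : StmtA2 a) {Y₀ : Subgroup G}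
    (hlt : Y₀ < ⁅Q, Q⁆) (hmax : ∀ X : Subgroup G, Y₀ < X → X ≤ ⁅Q, Q⁆ → X = ⁅Q, Q⁆)
    (hne : ⁅V, ⁅Q, Q⁆⁆ ⊓ centralizer (Y₀ : Set G) ≠ ⊥) (ha₀ : a ∈ normalizer (Y₀ : Set G)) :
    p ^ 2 ≤ Nat.card ↥(V ⊓ centralizer ({a} : Set G)) := by
  obtain ⟨c, hcQ, hca, g₀, hg₀, hz⟩ := h.exists_c hlt ha₀
  obtain ⟨Bb, hBb⟩ : ∃ Bb, Bb = zpowers c ⊔ ⁅Q, Q⁆ := ⟨_, rfl⟩
  have hcBb : c ∈ Bb := hBb ▸ le_sup_left (b := ⁅Q, Q⁆) (mem_zpowers c)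
  have hYBb : ⁅Q, Q⁆ ≤ Bb := hBb ▸ le_sup_right
  have hBbQ : Bb ≤ Q := hBb ▸ sup_le (by rw [zpowers_le]; exact hcQ) h.Y_le
  have hBbc : IsMulCommutative Bb := by
    rw [hBb]
    apply Helper56.isMulCommutative_sup inferInstance h.Y_comm
    rw [zpowers_le, mem_centralizer_iff]
    intro y hy
    exact (h.comm_Y hy hcQ).symm
  have hBbel : IsElementaryAbelian q Bb := ⟨hBbc, fun x hx => h.hQexp x (hBbQ hx)⟩
  have hQBb : Q ≤ normalizer (Bb : Set G) := by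
    intro u hu
    apply Helper56.mem_normalizer_of_map_le
    have e : cj u (zpowers c ⊔ ⁅Q, Q⁆) = cj u (zpowers c) ⊔ cj u ⁅Q, Q⁆ := Subgroup.map_sup _ _ _
    change cj u Bb ≤ Bb
    rw [hBb, e, Helper30.cj_eq_of_mem_normalizer (h.QY hu), ← hBb]
    refine sup_le ?_ hYBb
    have e2 : cj u (zpowers c) = zpowers (u * c * u⁻¹) := by
      change (zpowers c).map _ = _
      rw [MonoidHom.map_zpowers]
      rfl
    rw [e2, zpowers_le]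
    have : u * c * u⁻¹ = c * (c⁻¹ * u * c * u⁻¹) := by group
    rw [this]
    exact mul_mem hcBb (hYBb (h.psi_mem hcQ hu))
  have haBb : a ∈ normalizer (Bb : Set G) := by
    rw [hBb]
    refine Helper30.le_normalizer_sup (A := zpowers a) ?_ (zpowers_le_normalizer h.aY) (mem_zpowers a)
    rw [zpowers_le]
    apply centralizer_le_normalizer
    rw [centralizer_zpowers_eq, mem_centralizer_singleton]
    exact hca.symm
  have hfixBb : ⁅V, ⁅Q, Q⁆⁆ ⊓ centralizer (Bb : Set G) = ⊥ := by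
    rw [eq_bot_iff, ← h.V'_fix]
    exact inf_le_inf_left _ (Helper56.centralizer_anti hYBb)
  -- rung B for `V₁` and `Bb`
  obtain ⟨Bs, hBslt, hBsmax, hBsne⟩ := hB (⁅V, ⁅Q, Q⁆⁆ ⊓ centralizer (Y₀ : Set G)) Bb
    (Helper56.isMulCommutative_of_le h.V'_comm inf_le_left) hne hBbel
    (h.cop_V'q (inf_le_left.trans h.V'_le)) (hBbQ.trans (h.QV₁ hlt.le))
    (by
      rw [eq_bot_iff, ← hfixBb]
      exact inf_le_inf_right _ inf_le_left)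
  have hY₀Bs : Y₀ ≤ Bs := by
    by_contra hcon
    have h1 : Bs ⊔ Y₀ = Bb := by
      apply hBsmax
      · refine lt_of_le_of_ne le_sup_left ?_
        intro he
        apply hcon
        rw [he]
        exact le_sup_right
      · exact sup_le hBslt.le (hlt.le.trans hYBb)
    apply hBsne
    rw [eq_bot_iff, ← hfixBb, ← h1, Helper56.centralizer_sup]
    exact le_inf (inf_le_left.trans inf_le_left) (le_inf inf_le_right (inf_le_left.trans inf_le_right))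
  have hYBs : ¬ ⁅Q, Q⁆ ≤ Bs := by
    intro hcon
    apply hBsne
    rw [eq_bot_iff, ← h.V'_fix]
    exact le_inf (inf_le_left.trans inf_le_left) (inf_le_right.trans (Helper56.centralizer_anti hcon))
  have hBsY : Bs ⊓ ⁅Q, Q⁆ = Y₀ := by
    by_contra hcon
    have h1 : Y₀ < Bs ⊓ ⁅Q, Q⁆ := lt_of_le_of_ne (le_inf hY₀Bs hlt.le) (Ne.symm hcon)
    have h2 := hmax _ h1 inf_le_right
    exact hYBs (inf_eq_right.mp h2)
  have hsup : Bs ⊔ ⁅Q, Q⁆ = Bb := by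
    apply hBsmax
    · refine lt_of_le_of_ne le_sup_left ?_
      intro he
      apply hYBs
      rw [he]
      exact le_sup_right
    · exact sup_le hBslt.le hYBb
  -- `c y₁ ∈ Bs`
  obtain ⟨y₁, hy₁, hcy₁⟩ : ∃ y₁ ∈ ⁅Q, Q⁆, c * y₁ ∈ Bs := by
    have h1 : Bs ≤ centralizer ((⁅Q, Q⁆ : Subgroup G) : Set G) := by
      rw [le_centralizer_iff]
      exact h.hQcl.trans (Helper56.centralizer_anti (hBslt.le.trans hBbQ))
    have h2 := Helper56.sup_coe_eq_mul_of_le_centralizer h1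
    have h3 : c ∈ ((Bs ⊔ ⁅Q, Q⁆ : Subgroup G) : Set G) := by rw [hsup]; exact hcBb
    rw [h2] at h3
    obtain ⟨b, hb, y, hy, hby⟩ := Set.mem_mul.mp h3
    refine ⟨y⁻¹, inv_mem hy, ?_⟩
    rw [← hby, mul_inv_cancel_right]
    exact hb
  obtain ⟨z, hzdef⟩ : ∃ z, z = c⁻¹ * g₀ * c * g₀⁻¹ := ⟨_, rfl⟩
  have hzY : z ∈ ⁅Q, Q⁆ := hzdef ▸ h.psi_mem hcQ hg₀
  have hzn : z ∉ Y₀ := hzdef ▸ hz
  obtain ⟨u₁, hu₁, e₁, he₁, hw₁⟩ := h.exists_psi hlt hmax hcQ hg₀ hz (w := z * y₁⁻¹)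
    (mul_mem hzY (inv_mem hy₁))
  obtain ⟨u₂, hu₂, e₂, he₂, hw₂⟩ := h.exists_psi hlt hmax hcQ hg₀ hz (w := z⁻¹ * y₁⁻¹)
    (mul_mem (inv_mem hzY) (inv_mem hy₁))
  -- general facts on the conjugates of `Bs`
  have hconj : ∀ u ∈ Q, c * ((c⁻¹ * u * c * u⁻¹) * y₁) ∈ cj u Bs := by
    intro u hu
    have h1 := Helper30.conj_mem_cj (g := u) hcy₁
    have h3 : u * (c * y₁) * u⁻¹ = c * ((c⁻¹ * u * c * u⁻¹) * y₁) := by
      calc u * (c * y₁) * u⁻¹ = u * c * (y₁ * u⁻¹) := by group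
        _ = u * c * (u⁻¹ * y₁) := by rw [h.comm_Y hy₁ (inv_mem hu)]
        _ = _ := by group
    rwa [h3] at h1
  have hinf : ∀ u ∈ Q, cj u Bs ⊓ ⁅Q, Q⁆ ≤ Y₀ := by
    intro u hu
    have e1 : cj u (Bs ⊓ ⁅Q, Q⁆) = cj u Bs ⊓ cj u ⁅Q, Q⁆ := Helper30.cj_inf _ _ _
    rw [Helper30.cj_eq_of_mem_normalizer (h.QY hu), hBsY,
      Helper30.cj_eq_of_mem_normalizer (h.normalizer_Y₀_of_mem hlt.le hu)] at e1
    exact e1.ge
  have hfixne : ∀ u ∈ Q, ⁅V, ⁅Q, Q⁆⁆ ⊓ centralizer ((cj u Bs : Subgroup G) : Set G) ≠ ⊥ := by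
    intro u hu he
    have e1 : cj u (⁅V, ⁅Q, Q⁆⁆ ⊓ centralizer (Bs : Set G)) =
        cj u ⁅V, ⁅Q, Q⁆⁆ ⊓ cj u (centralizer (Bs : Set G)) := Helper30.cj_inf _ _ _
    have e2 : cj u (centralizer (Bs : Set G)) = centralizer ((cj u Bs : Subgroup G) : Set G) :=
      Helper56.map_conj_centralizer Bs u
    rw [Helper30.cj_eq_of_mem_normalizer (h.QV' hu), e2, he] at e1
    have e3 : ⁅V, ⁅Q, Q⁆⁆ ⊓ centralizer (Bs : Set G) = ⊥ := by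
      have := congrArg (cj u⁻¹) e1
      rw [Helper30.cj_inv_cj] at this
      rw [this]
      exact Subgroup.map_bot _
    apply hBsne
    rw [eq_bot_iff, ← e3]
    exact inf_le_inf_right _ inf_le_left
  -- the two slopes
  obtain ⟨w₁, hw₁def⟩ : ∃ w₁, w₁ = (c⁻¹ * u₁ * c * u₁⁻¹) * y₁ := ⟨_, rfl⟩
  obtain ⟨w₂, hw₂def⟩ : ∃ w₂, w₂ = (c⁻¹ * u₂ * c * u₂⁻¹) * y₁ := ⟨_, rfl⟩
  have hw₁e : w₁ = e₁⁻¹ * z := by
    rw [hw₁def]
    have : c⁻¹ * u₁ * c * u₁⁻¹ = e₁⁻¹ * (z * y₁⁻¹) := by rw [hw₁]; group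
    rw [this]; group
  have hw₂e : w₂ = e₂⁻¹ * z⁻¹ := by
    rw [hw₂def]
    have : c⁻¹ * u₂ * c * u₂⁻¹ = e₂⁻¹ * (z⁻¹ * y₁⁻¹) := by rw [hw₂]; group
    rw [this]; group
  have hw₁Y : w₁ ∈ ⁅Q, Q⁆ := hw₁def ▸ mul_mem (h.psi_mem hcQ hu₁) hy₁
  have hw₂Y : w₂ ∈ ⁅Q, Q⁆ := hw₂def ▸ mul_mem (h.psi_mem hcQ hu₂) hy₁
  have hw₁n : w₁ ∉ Y₀ := by
    intro hcon
    apply hzn
    have : z = e₁ * w₁ := by rw [hw₁e]; group
    rw [this]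
    exact mul_mem he₁ hcon
  have hw₂n : w₂ ∉ Y₀ := by
    intro hcon
    apply hzn
    have : z = (e₂ * w₂)⁻¹ := by rw [hw₂e]; group
    rw [this]
    exact inv_mem (mul_mem he₂ hcon)
  have hprod : w₁ * w₂ ∈ Y₀ := by
    have hc1 : z * e₂⁻¹ = e₂⁻¹ * z := h.comm_Y (hlt.le (inv_mem he₂)) (h.Y_le hzY)
    have : w₁ * w₂ = e₁⁻¹ * e₂⁻¹ := by
      rw [hw₁e, hw₂e]
      calc e₁⁻¹ * z * (e₂⁻¹ * z⁻¹) = e₁⁻¹ * (z * e₂⁻¹) * z⁻¹ := by group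
        _ = e₁⁻¹ * (e₂⁻¹ * z) * z⁻¹ := by rw [hc1]
        _ = _ := by group
    rw [this]
    exact mul_mem (inv_mem he₁) (inv_mem he₂)
  have hm₁ := max_cj (hQBb hu₁) hBslt hBsmax
  have hm₂ := max_cj (hQBb hu₂) hBslt hBsmax
  have key := hA2 ⁅V, ⁅Q, Q⁆⁆ Bb (cj u₁ Bs) (cj u₂ Bs) h.V'_comm hBbc (hBbQ.trans h.QV') hfixBb h.aV' haBb
    hm₁.1 hm₁.2 hm₂.1 hm₂.2
    (h.not_fix hlt.le ha₀ hca hw₁Y hw₁n (hinf u₁ hu₁) (hw₁def ▸ hconj u₁ hu₁))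
    (h.not_fix hlt.le ha₀ hca hw₂Y hw₂n (hinf u₂ hu₂) (hw₂def ▸ hconj u₂ hu₂))
    (h.not_swap hlt.le ha₀ hca hw₁Y hw₁n hw₂Y hprod (hinf u₂ hu₂) (hw₁def ▸ hconj u₁ hu₁)
      (hw₂def ▸ hconj u₂ hu₂))
  have k1 := le_card_of_ne_bot h.hp (h.V'p.to_le inf_le_left) (hfixne u₁ hu₁)
  have k2 := le_card_of_ne_bot h.hp (h.V'p.to_le inf_le_left) (hfixne u₂ hu₂)
  calc p ^ 2 = p * p := pow_two p
    _ ≤ _ := Nat.mul_le_mul k1 k2
    _ ≤ _ := key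
    _ ≤ _ := h.card_V'a_le

/-- rung D relative to rungs A and B -/
theorem main [Finite G] (h : HD p q r V Q T a) (hB : StmtB G q) (hA1 : StmtA1 a) (hA2 : StmtA2 a) :
    p ^ 2 ≤ Nat.card ↥(V ⊓ centralizer ({a} : Set G)) := by
  obtain ⟨Y₀, hlt, hmax, hne⟩ := hB ⁅V, ⁅Q, Q⁆⁆ ⁅Q, Q⁆ h.V'_comm h.V'_ne h.Y_elab (h.cop_V'q h.V'_le)
    (h.Y_le.trans h.QV') h.V'_fix
  by_cases ha₀ : cj a Y₀ = Y₀
  · exact h.caseV hB hA2 hlt hmax hne (Helper30.mem_normalizer_of_cj_eq ha₀)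
  · have k := hA1 ⁅V, ⁅Q, Q⁆⁆ ⁅Q, Q⁆ Y₀ h.V'_comm h.Y_comm (h.Y_le.trans h.QV') h.V'_fix h.aV' h.aY hlt hmax
      ha₀
    calc p ^ 2 ≤ _ := h.sq_le_card_V₁ hlt.le hne
      _ ≤ _ := k
      _ ≤ _ := h.card_V'a_le

end HD

end Cfsg.Agent.Lib.Helper56.BG
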