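import Mathlib
import Cfsg.Prelude
import Cfsg.Agent.Lib.Helper30.Coprime
import Cfsg.Agent.Lib.Helper41.BG36A
import Cfsg.Agent.Lib.Helper41.BG36B
import Cfsg.Agent.Lib.Helper56.BG36D5

set_option autoImplicit false

/-! Rung D of the B-G 3.6 ladder (helper3): the non-abelian case. -/

namespace Cfsg.Agent.Lib.Helper56

open Subgroup Cfsg
open Cfsg.Agent.Lib.Helper30 (cj)

variable {G : Type*} [Group G] [Finite G]

theorem nonabelian_case {p q r : ℕ} (hp : p.Prime) (hq : q.Prime) (hr : r.Prime) (hq2 : q ≠ 2) (hr2 : r ≠ 2)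
    (hpq : p ≠ q) (hpr : p ≠ r) (hqr : q ≠ r) (V Q T : Subgroup G) (a : G) (har : orderOf a = r)
    (hV : IsElementaryAbelian p V) (hQexp : ∀ x ∈ Q, x ^ q = 1) (hT : IsPGroup p T)
    (hQV : Q ≤ normalizer (V : Set G)) (hTV : T ≤ normalizer (V : Set G)) (haV : a ∈ normalizer (V : Set G))
    (hTQ : T ≤ normalizer (Q : Set G)) (haQ : a ∈ normalizer (Q : Set G)) (haT : a ∈ normalizer (T : Set G))
    (hfaith : Q ⊓ centralizer (V : Set G) = ⊥) (hfpf : T ⊓ centralizer ({a} : Set G) = ⊥)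
    (hQcl : ⁅Q, Q⁆ ≤ centralizer (Q : Set G)) (hQna : ⁅Q, Q⁆ ≠ ⊥) (hQT : ⁅Q, T⁆ = Q)
    (hmin : ∀ X : Subgroup G, X < Q → T ≤ normalizer (X : Set G) → a ∈ normalizer (X : Set G) →
      T ≤ centralizer (X : Set G))
    (hcyc : IsCyclic ↥(Q ⊓ centralizer ({a} : Set G))) :
    p ^ 2 ≤ Nat.card ↥(V ⊓ centralizer ({a} : Set G)) := by
  have h : BG.HD p q r V Q T a :=
    ⟨hp, hq, hr, hq2, hr2, hpq, hpr, hqr, har, hV, hQexp, hT, hQV, hTV, haV, hTQ, haQ, haT, hfaith, hfpf,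
      hQcl, hQna, hQT, hmin, hcyc⟩
  apply h.main
  · intro W B hWc hW1 hB hcop hBW hfix
    exact Helper41.exists_hyperplane W B hq hWc hW1 hB hcop hBW hfix
  · intro W B B₁ hWc hBc hBW hfix haW haB h₁ hmax₁ hm₁
    exact Helper41.card_fix_le W B B₁ a hr har hWc hBc hBW hfix haW haB h₁ hmax₁ hm₁
  · intro W B B₁ B₂ hWc hBc hBW hfix haW haB h₁ hmax₁ h₂ hmax₂ hm₁ hm₂ hne
    exact Helper41.card_fix_mul_le W B a hr har hWc hBc hBW hfix haW haB B₁ B₂ h₁ hmax₁ h₂ hmax₂ hm₁ hm₂ hne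

end Cfsg.Agent.Lib.Helper56
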